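/-
Helper library (helper24): automorphisms of narrow p-groups (Bender–Glauberman, Section 5).

Main result `narrow_main`: let `R` be a `p`-group (`p` odd), `T` a normal subgroup of index `p`, `x ∈ R` such that
every subgroup of exponent `p` of `C_T(x)` has order at most `p`.  If `A` normalizes `R` and `T`, then every
`p'`-element of the verbal subgroup `A' A^(p-1)` centralizes `R`.
-/
import Cfsg.Agent.Lib.Helper24.Rank2Main

set_option autoImplicit false
set_option linter.unusedSimpArgs false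
set_option linter.unusedVariables false
set_option linter.style.haveILetI false

namespace Cfsg.Agent.Lib.Helper24

open scoped commutatorElement

universe u

variable {G : Type u} [Group G]

/-- The action of `X` on a section `W / Z`, as a homomorphism into the automorphism group of a group `V`
of order `|W : Z|`. -/
theorem exists_section_hom (W Z X : Subgroup G) (hZW : Z ≤ W)
    (hWZ : W ≤ Subgroup.normalizer (Z : Set G)) (hXW : X ≤ Subgroup.normalizer (W : Set G))
    (hXZ : X ≤ Subgroup.normalizer (Z : Set G)) :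
    ∃ (V : Type u) (_ : Group V) (ψ : ↥X →* MulAut V), Nat.card V = Z.relIndex W ∧
      ∀ x : X, ψ x = 1 ↔ ∀ w ∈ W, ⁅(x : G), w⁆ ∈ Z := by
  haveI hn : (Z.subgroupOf W).Normal := (Subgroup.normal_subgroupOf_iff_le_normalizer hZW).2 hWZ
  have hle : ∀ x : X, Z.subgroupOf W ≤ (Z.subgroupOf W).comap (conjOn W x (hXW x.2)) := by
    intro x w hw
    rw [Subgroup.mem_comap, Subgroup.mem_subgroupOf]
    exact (Subgroup.mem_normalizer_iff.1 (hXZ x.2) w).1 hw
  let c : X → ((↥W ⧸ Z.subgroupOf W) →* (↥W ⧸ Z.subgroupOf W)) := fun x =>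
    QuotientGroup.map _ _ (conjOn W x (hXW x.2)) (hle x)
  have hcmk : ∀ (x : X) (w : W), c x (QuotientGroup.mk w) =
      QuotientGroup.mk (conjOn W x (hXW x.2) w) := fun x w => rfl
  have hc1 : c 1 = MonoidHom.id _ := by
    ext w
    simp only [MonoidHom.coe_comp, QuotientGroup.coe_mk', Function.comp_apply, MonoidHom.id_apply]
    rw [hcmk]
    congr 1
    apply Subtype.ext
    simp [conjOn]
  have hcmul : ∀ x y, c (x * y) = (c x).comp (c y) := by
    intro x y
    ext w
    simp only [MonoidHom.coe_comp, QuotientGroup.coe_mk', Function.comp_apply]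
    rw [hcmk, hcmk, hcmk]
    congr 1
    apply Subtype.ext
    simp [conjOn, mul_assoc]
  have hinv : ∀ (x : X) v, c x⁻¹ (c x v) = v := by
    intro x v
    have h := DFunLike.congr_fun (hcmul x⁻¹ x) v
    rw [inv_mul_cancel, hc1] at h
    exact h.symm
  have hinv' : ∀ (x : X) v, c x (c x⁻¹ v) = v := by
    intro x v
    have h := DFunLike.congr_fun (hcmul x x⁻¹) v
    rw [mul_inv_cancel, hc1] at h
    exact h.symm
  let ψ : X →* MulAut (↥W ⧸ Z.subgroupOf W) :=
    { toFun := fun x =>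
        { toFun := c x
          invFun := c x⁻¹
          left_inv := hinv x
          right_inv := hinv' x
          map_mul' := map_mul (c x) }
      map_one' := by
        apply MulEquiv.ext
        intro v
        rw [MulAut.one_apply]
        show c 1 v = v
        rw [hc1]; rfl
      map_mul' := by
        intro x y
        apply MulEquiv.ext
        intro v
        rw [MulAut.mul_apply]
        show c (x * y) v = c x (c y v)
        rw [hcmul]; rfl }
  have hψ : ∀ x : X, ψ x = 1 ↔ c x = MonoidHom.id _ := by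
    intro x
    constructor
    · intro h
      ext v
      have h1 := DFunLike.congr_fun h (QuotientGroup.mk v)
      rw [MulAut.one_apply] at h1
      exact h1
    · intro h
      apply MulEquiv.ext
      intro v
      rw [MulAut.one_apply]
      show c x v = v
      rw [h]; rfl
  refine ⟨_, inferInstance, ψ, rfl, fun x => ?_⟩
  rw [hψ]
  constructor
  · intro h w hw
    have h1 := DFunLike.congr_fun h (QuotientGroup.mk (⟨w, hw⟩ : W))
    rw [hcmk, MonoidHom.id_apply, eq_comm, QuotientGroup.eq, Subgroup.mem_subgroupOf] at h1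
    have h2 : w⁻¹ * ((x : G) * w * (x : G)⁻¹) ∈ Z := h1
    have h3 : ⁅(x : G), w⁆ = w * (w⁻¹ * ((x : G) * w * (x : G)⁻¹)) * w⁻¹ := by
      rw [commutatorElement_def]; group
    rw [h3]
    exact (Subgroup.mem_normalizer_iff.1 (hWZ hw) _).1 h2
  · intro h
    ext w
    simp only [MonoidHom.coe_comp, QuotientGroup.coe_mk', Function.comp_apply, MonoidHom.id_apply]
    rw [hcmk, eq_comm, QuotientGroup.eq, Subgroup.mem_subgroupOf]
    show (w : G)⁻¹ * ((x : G) * w * (x : G)⁻¹) ∈ Z
    have h2 := h w w.2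
    have h3 : (w : G)⁻¹ * ((x : G) * w * (x : G)⁻¹) = (w : G)⁻¹ * ⁅(x : G), (w : G)⁆ * (w : G)⁻¹⁻¹ := by
      rw [commutatorElement_def]; group
    rw [h3]
    exact (Subgroup.mem_normalizer_iff.1 (hWZ (W.inv_mem w.2)) _).1 h2

/-- On a section of prime order `p`, commutators and `(p-1)`-th powers act trivially. -/
theorem section_prime_action (p : ℕ) [Fact p.Prime] (W Z X : Subgroup G) (hZW : Z ≤ W)
    (hWZ : W ≤ Subgroup.normalizer (Z : Set G)) (hXW : X ≤ Subgroup.normalizer (W : Set G))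
    (hXZ : X ≤ Subgroup.normalizer (Z : Set G)) (hidx : Z.relIndex W = p) :
    ⁅X, X⁆ ≤ sectionCent W Z ∧ ∀ x ∈ X, x ^ (p - 1) ∈ sectionCent W Z := by
  have hp : p.Prime := Fact.out
  obtain ⟨V, _, ψ, hV, hψ⟩ := exists_section_hom W Z X hZW hWZ hXW hXZ
  rw [hidx] at hV
  haveI : IsCyclic V := isCyclic_of_prime_card hV
  haveI : Finite V := Nat.finite_of_card_ne_zero (by rw [hV]; exact hp.ne_zero)
  have hcard : Nat.card (MulAut V) = p - 1 := by
    rw [IsCyclic.card_mulAut, hV, Nat.totient_prime hp]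
  have hcomm : ∀ a b : MulAut V, a * b = b * a := by
    intro a b
    apply (IsCyclic.mulAutMulEquiv V).injective
    rw [map_mul, map_mul, mul_comm]
  constructor
  · rw [Subgroup.commutator_le]
    intro x hx y hy
    refine ⟨hXZ (commutator_self_le X (Subgroup.commutator_mem_commutator hx hy)), ?_⟩
    have h1 : ψ ⁅(⟨x, hx⟩ : X), ⟨y, hy⟩⁆ = 1 := by
      rw [map_commutatorElement, commutatorElement_eq_one_iff_mul_comm]; exact hcomm _ _
    exact (hψ _).1 h1
  · intro x hx
    refine ⟨hXZ (X.pow_mem hx _), ?_⟩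
    have h1 : ψ ((⟨x, hx⟩ : X) ^ (p - 1)) = 1 := by
      rw [map_pow, ← hcard]; exact pow_card_eq_one'
    exact (hψ _).1 h1

theorem le_normalizer_sSup (X : Subgroup G) (S : Set (Subgroup G))
    (h : ∀ M ∈ S, X ≤ Subgroup.normalizer (M : Set G)) :
    X ≤ Subgroup.normalizer ((sSup S : Subgroup G) : Set G) := by
  rw [Subgroup.le_normalizer_iff]
  intro g hg m hm
  have h1 : sSup S ≤ (sSup S).comap (MulAut.conj g).toMonoidHom := by
    apply sSup_le
    intro M hM a ha
    rw [Subgroup.mem_comap]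
    exact (le_sSup hM) ((Subgroup.le_normalizer_iff.1 (h M hM)) g hg a ha)
  exact h1 hm

theorem normalizer_inf_le_normalizer_sectionCent (W Z : Subgroup G) :
    Subgroup.normalizer (W : Set G) ⊓ Subgroup.normalizer (Z : Set G) ≤
      Subgroup.normalizer ((sectionCent W Z : Subgroup G) : Set G) := by
  rw [Subgroup.le_normalizer_iff]
  rintro g ⟨hgW, hgZ⟩ a ⟨haZ, ha⟩
  refine ⟨Subgroup.mul_mem _ (Subgroup.mul_mem _ hgZ haZ) (Subgroup.inv_mem _ hgZ), fun w hw => ?_⟩
  have hginv : g⁻¹ ∈ Subgroup.normalizer (W : Set G) := Subgroup.inv_mem _ hgW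
  have h1 : g⁻¹ * w * g⁻¹⁻¹ ∈ W := (Subgroup.mem_normalizer_iff.1 hginv w).1 hw
  have h3 : ⁅g * a * g⁻¹, w⁆ = g * ⁅a, g⁻¹ * w * g⁻¹⁻¹⁆ * g⁻¹ := by
    rw [conjugate_commutatorElement]; congr 1; group
  rw [h3]
  exact (Subgroup.mem_normalizer_iff.1 hgZ _).1 (ha _ h1)

/-- Coprime action: a `p'`-element acting trivially on `N₂ / N` and on `N` centralizes the `p`-group `N₂`. -/
theorem mem_centralizer_of_sectionCent [Finite G] (p : ℕ) [Fact p.Prime] (N₂ N : Subgroup G)
    (hN₂ : IsPGroup p N₂) (l : G) (hlN₂ : l ∈ Subgroup.normalizer (N₂ : Set G))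
    (hcop : (orderOf l).Coprime p) (hl : l ∈ sectionCent N₂ N)
    (hlN : l ∈ Subgroup.centralizer (N : Set G)) : l ∈ Subgroup.centralizer (N₂ : Set G) := by
  set A₀ := Subgroup.zpowers l with hA₀
  have h1 : ⁅N₂, A₀⁆ ≤ N := by
    rw [Subgroup.commutator_comm, Subgroup.commutator_le]
    intro a ha w hw
    exact ((Subgroup.zpowers_le.2 hl) ha).2 w hw
  have h2 : N ≤ Subgroup.centralizer (A₀ : Set G) := by
    rw [Subgroup.le_centralizer_iff, Subgroup.zpowers_le]; exact hlN
  have h3 : ⁅⁅N₂, A₀⁆, A₀⁆ = ⊥ := by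
    rw [Subgroup.commutator_eq_bot_iff_le_centralizer]; exact h1.trans h2
  have h4 : (Nat.card A₀).Coprime p := by rw [Nat.card_zpowers]; exact hcop
  have h5 := commutator_eq_bot_of_coprime (N := N₂) (A := A₀)
    (by rw [Subgroup.zpowers_le]; exact hlN₂) (coprime_card_of_isPGroup h4 hN₂) h3
  rw [Subgroup.commutator_eq_bot_iff_le_centralizer, Subgroup.le_centralizer_iff] at h5
  exact h5 (Subgroup.mem_zpowers l)

/-- **Key lemma.** A minimal `X`-invariant section `N₂ / N` on which some `l` centralizing `N` acts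
nontrivially has order `p`, provided some `x ∈ R` has few fixed points of order `p` on `N₂`. -/
theorem relIndex_eq_prime_of_minimal [Finite G] (p : ℕ) [Fact p.Prime] (hp2 : p ≠ 2)
    (R X N N₂ : Subgroup G) (hR : IsPGroup p R) (hRX : R ≤ X)
    (hXR : X ≤ Subgroup.normalizer (R : Set G))
    (hN₂R : N₂ ≤ R) (hNN₂ : N ≤ N₂)
    (hXN : X ≤ Subgroup.normalizer (N : Set G)) (hXN₂ : X ≤ Subgroup.normalizer (N₂ : Set G))
    (hmin : ∀ M : Subgroup G, X ≤ Subgroup.normalizer (M : Set G) → M ≤ N₂ → M = N₂ ∨ M ≤ N)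
    (l : G) (hlN₂ : l ∈ Subgroup.normalizer (N₂ : Set G))
    (hlN : l ∈ Subgroup.centralizer (N : Set G)) (y : G) (hy : y ∈ N₂) (hyl : ⁅y, l⁆ ∉ N)
    (x : G) (hx : x ∈ R)
    (hxF : ∀ F : Subgroup G, F ≤ N₂ → (∀ f ∈ F, f ^ p = 1) → (∀ f ∈ F, Commute x f) →
      Nat.card F ≤ p) :
    N.relIndex N₂ = p := by
  have hp : p.Prime := Fact.out
  have hN₂X : N₂ ≤ X := hN₂R.trans hRX
  have hN₂N : N₂ ≤ Subgroup.normalizer (N : Set G) := hN₂X.trans hXN
  set u := ⁅y, l⁆ with hu
  have hy' : l * y⁻¹ * l⁻¹ ∈ N₂ := (Subgroup.mem_normalizer_iff.1 hlN₂ _).1 (N₂.inv_mem hy)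
  have hu_eq : u = y * (l * y⁻¹ * l⁻¹) := by rw [hu, commutatorElement_def]; group
  have huN₂ : u ∈ N₂ := by rw [hu_eq]; exact N₂.mul_mem hy hy'
  have hnle : ¬ N₂ ≤ N := fun h => hyl (h huN₂)
  have hlt : N < N₂ := lt_of_le_of_ne hNN₂ (fun h => hnle h.ge)
  -- Step 1
  have s1 : ∀ f ∈ N₂, ∀ g ∈ R, ⁅f, g⁆ ∈ N := by
    obtain ⟨f, hf, hfN, hfg⟩ := exists_central_mod (P := R) (W := N₂) (E := N) hR.isNilpotent hN₂R
      (hRX.trans hXN₂) hnle
    have hM : X ≤ Subgroup.normalizer ((N₂ ⊓ sectionCent R N : Subgroup G) : Set G) :=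
      le_trans (le_inf hXN₂ ((le_inf hXR hXN).trans (normalizer_inf_le_normalizer_sectionCent R N)))
        Subgroup.inf_normalizer_le_normalizer_inf
    rcases hmin _ hM inf_le_left with h | h
    · intro f' hf' g hg
      have : f' ∈ N₂ ⊓ sectionCent R N := by rw [h]; exact hf'
      exact this.2.2 g hg
    · exact absurd (h ⟨hf, hN₂N hf, hfg⟩) hfN
  -- Step 2
  have s2 : ∀ f ∈ N₂, f ^ p ∈ N := by
    obtain ⟨M, hNM, hMlt, _, _, hpow, _⟩ := exists_maximal_normal p (hR.to_le hN₂R) hlt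
    have hcl : Subgroup.closure ((fun x => x ^ p) '' (N₂ : Set G)) ≤ M := by
      rw [Subgroup.closure_le]
      rintro _ ⟨f, hf, rfl⟩
      exact hpow f hf
    rcases hmin _ (hXN₂.trans (normalizer_le_normalizer_closure_pow N₂ p)) (hcl.trans hMlt.le) with h | h
    · exact absurd (h ▸ hcl) (not_le_of_gt hMlt)
    · intro f hf
      exact h (Subgroup.subset_closure ⟨f, hf, rfl⟩)
  -- Step 3
  have huc : u ∈ Subgroup.centralizer (N : Set G) := by
    rw [Subgroup.mem_centralizer_iff]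
    intro n hn
    have hl := Subgroup.mem_centralizer_iff.1 hlN
    have hn' : y⁻¹ * n * y⁻¹⁻¹ ∈ N := (Subgroup.mem_normalizer_iff.1 (hN₂N (N₂.inv_mem hy)) n).1 hn
    have e1 : Commute n l := hl n hn
    have e2 : Commute (y⁻¹ * n * y⁻¹⁻¹) l := hl _ hn'
    have e3 : l⁻¹ * n = n * l⁻¹ := (e1.inv_right).eq.symm
    have e4 : u * n = y * (l * (y⁻¹ * n * y⁻¹⁻¹)) * y⁻¹ * l⁻¹ := by
      rw [hu, commutatorElement_def]
      calc y * l * y⁻¹ * l⁻¹ * n = y * l * y⁻¹ * (l⁻¹ * n) := by group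
        _ = y * l * y⁻¹ * (n * l⁻¹) := by rw [e3]
        _ = _ := by group
    rw [e4, ← e2.eq, hu, commutatorElement_def]; group
  have s3 : N₂ ≤ Subgroup.centralizer (N : Set G) := by
    have hM : X ≤ Subgroup.normalizer ((N₂ ⊓ Subgroup.centralizer (N : Set G) : Subgroup G) : Set G) :=
      le_trans (le_inf hXN₂ (hXN.trans (normalizer_le_normalizer_centralizer N)))
        Subgroup.inf_normalizer_le_normalizer_inf
    rcases hmin _ hM inf_le_left with h | h
    · intro f hf
      have : f ∈ N₂ ⊓ Subgroup.centralizer (N : Set G) := by rw [h]; exact hf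
      exact this.2
    · exact absurd (h ⟨huN₂, huc⟩) hyl
  have hcomm : ∀ n ∈ N, ∀ f ∈ N₂, Commute n f := fun n hn f hf =>
    (Subgroup.mem_centralizer_iff.1 (s3 hf)) n hn
  -- Step 4
  have hup : u ^ p = 1 := by
    rw [hu_eq, mul_pow_prime_of_commute p hp2 y (l * y⁻¹ * l⁻¹)
      (hcomm _ (s1 _ hy' _ (hN₂R hy)) _ hy) (hcomm _ (s1 _ hy' _ (hN₂R hy)) _ hy')
      (hcomm _ (s2 _ hy') _ hy), conj_pow, inv_pow]
    have e1 : Commute (y ^ p) l := (Subgroup.mem_centralizer_iff.1 hlN) _ (s2 y hy)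
    have e2 : l * (y ^ p)⁻¹ * l⁻¹ = (y ^ p)⁻¹ := by
      rw [← (e1.inv_left).eq]; group
    rw [e2, mul_inv_cancel]
  have s4 : ∀ f ∈ N₂, f ^ p = 1 := by
    have hM := le_trans (le_inf hXN₂ hXN) (normalizer_le_normalizer_omegaCentralMod p hp2 N N₂ hN₂N)
    rcases hmin _ hM (fun c hc => hc.1) with h | h
    · intro f hf
      have : f ∈ omegaCentralMod p hp2 N N₂ hN₂N := by rw [h]; exact hf
      exact this.2.2.2
    · exact absurd (h ⟨huN₂, huc, fun m hm => s1 u huN₂ m (hN₂R hm), hup⟩) hyl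
  -- Step 5
  have hdvd := relIndex_centralizer_dvd x N₂ N
    (fun g hg => by
      rw [← commutatorElement_inv]; exact N.inv_mem (s1 g hg x hx))
    (Subgroup.le_centralizer_iff.1 s3)
  have hF : Nat.card (N₂ ⊓ Subgroup.centralizer ({x} : Set G) : Subgroup G) ≤ p := by
    apply hxF _ inf_le_left (fun f hf => s4 f hf.1)
    intro f hf
    exact (Subgroup.mem_centralizer_iff.1 hf.2) x rfl
  have c1 := relIndex_mul_card' (inf_le_left : N₂ ⊓ Subgroup.centralizer ({x} : Set G) ≤ N₂)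
  have c2 := relIndex_mul_card' hNN₂
  have hNpos : 0 < Nat.card N := Nat.card_pos
  have c3 : (N₂ ⊓ Subgroup.centralizer ({x} : Set G)).relIndex N₂ ≤ Nat.card N :=
    Nat.le_of_dvd hNpos hdvd
  have c4 : N.relIndex N₂ * Nat.card N ≤ p * Nat.card N := by
    rw [c2, ← c1, mul_comm p]
    exact Nat.mul_le_mul c3 hF
  have c5 : N.relIndex N₂ ≤ p := Nat.le_of_mul_le_mul_right c4 hNpos
  obtain ⟨k, hk⟩ := IsPGroup.iff_card.1 (hR.to_le hN₂R)
  have c6 : N.relIndex N₂ ∣ p ^ k := by rw [← hk, ← c2]; exact Dvd.intro _ rfl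
  obtain ⟨j, _, hj⟩ := (Nat.dvd_prime_pow hp).1 c6
  have c7 : N.relIndex N₂ ≠ 1 := fun h => hnle (Subgroup.relIndex_eq_one.1 h)
  rcases j with _ | _ | j
  · rw [hj, pow_zero] at c7; exact absurd rfl c7
  · rw [hj]; simp
  · exfalso
    rw [hj] at c5
    have : p ^ 2 ≤ p ^ (j + 1 + 1) := Nat.pow_le_pow_right hp.pos (by omega)
    have h2 : p < p ^ 2 := by nlinarith [hp.two_le]
    omega

/-- The verbal subgroup `A' A^(p-1)`: the smallest normal subgroup with abelian quotient of exponent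
dividing `p - 1`. -/
def sharp (p : ℕ) (A : Subgroup G) : Subgroup G :=
  ⁅A, A⁆ ⊔ Subgroup.closure ((fun a => a ^ (p - 1)) '' (A : Set G))

theorem sharp_le_of {p : ℕ} {A S : Subgroup G} (h1 : ⁅A, A⁆ ≤ S) (h2 : ∀ a ∈ A, a ^ (p - 1) ∈ S) :
    sharp p A ≤ S := by
  refine sup_le h1 ?_
  rw [Subgroup.closure_le]
  rintro _ ⟨a, ha, rfl⟩
  exact h2 a ha

theorem sharp_le (p : ℕ) (A : Subgroup G) : sharp p A ≤ A :=
  sharp_le_of (commutator_self_le A) (fun a ha => A.pow_mem ha _)

theorem commutator_le_sharp (p : ℕ) (A : Subgroup G) : ⁅A, A⁆ ≤ sharp p A := le_sup_left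

theorem pow_mem_sharp (p : ℕ) (A : Subgroup G) {a : G} (ha : a ∈ A) : a ^ (p - 1) ∈ sharp p A :=
  (le_sup_right : _ ≤ sharp p A) (Subgroup.subset_closure ⟨a, ha, rfl⟩)

theorem normalizer_le_normalizer_sharp (p : ℕ) (A : Subgroup G) :
    Subgroup.normalizer (A : Set G) ≤ Subgroup.normalizer ((sharp p A : Subgroup G) : Set G) := by
  have h1 : Subgroup.normalizer (A : Set G) ≤ Subgroup.normalizer ((⁅A, A⁆ : Subgroup G) : Set G) :=
    le_trans (le_inf le_rfl le_rfl) (normalizer_inf_le_normalizer_commutator A A)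
  have h2 := normalizer_le_normalizer_closure_pow A (p - 1)
  have h3 : sharp p A = sSup {⁅A, A⁆, Subgroup.closure ((fun a => a ^ (p - 1)) '' (A : Set G))} := by
    rw [sSup_pair]; rfl
  rw [h3]
  apply le_normalizer_sSup
  rintro M (rfl | rfl)
  · exact h1
  · exact h2

/-- **Main theorem on narrow `p`-groups.** -/
theorem narrow_main [Finite G] (p : ℕ) [Fact p.Prime] (hp2 : p ≠ 2) (R T A : Subgroup G)
    (hR : IsPGroup p R) (hTR : T ≤ R) (hRT : R ≤ Subgroup.normalizer (T : Set G))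
    (hidx : T.relIndex R = p) (hAR : A ≤ Subgroup.normalizer (R : Set G))
    (hAT : A ≤ Subgroup.normalizer (T : Set G)) (x : G) (hx : x ∈ R)
    (hxF : ∀ F : Subgroup G, F ≤ T → (∀ f ∈ F, f ^ p = 1) → (∀ f ∈ F, Commute x f) →
      Nat.card F ≤ p) :
    ∀ l ∈ sharp p A, (orderOf l).Coprime p → l ∈ Subgroup.centralizer (R : Set G) := by
  have hp : p.Prime := Fact.out
  set X := R ⊔ A with hX
  have hRX : R ≤ X := le_sup_left
  have hAX : A ≤ X := le_sup_right
  have hXR : X ≤ Subgroup.normalizer (R : Set G) := sup_le Subgroup.le_normalizer hAR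
  have hXT : X ≤ Subgroup.normalizer (T : Set G) := sup_le hRT hAT
  intro l hl hcop
  have hlA : l ∈ A := sharp_le p A hl
  have hlX : l ∈ X := hAX hlA
  have claim : ∀ n : ℕ, ∀ N₂ : Subgroup G, Nat.card N₂ = n →
      X ≤ Subgroup.normalizer (N₂ : Set G) → N₂ ≤ T → l ∈ Subgroup.centralizer (N₂ : Set G) := by
    intro n
    induction n using Nat.strong_induction_on with
    | _ n ih =>
      intro N₂ hn hXN₂ hN₂T
      by_contra hl2
      set S : Set (Subgroup G) := {M | X ≤ Subgroup.normalizer (M : Set G) ∧ M < N₂} with hS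
      set N := sSup S with hN
      have hNle : N ≤ N₂ := sSup_le fun M hM => hM.2.le
      have hXN : X ≤ Subgroup.normalizer (N : Set G) := le_normalizer_sSup X S fun M hM => hM.1
      have hlN : l ∈ Subgroup.centralizer (N : Set G) := by
        have h1 : N ≤ Subgroup.centralizer ((Subgroup.zpowers l : Subgroup G) : Set G) := by
          apply sSup_le
          intro M hM
          rw [Subgroup.le_centralizer_iff, Subgroup.zpowers_le]
          exact ih (Nat.card M) (hn ▸ card_lt_of_lt hM.2) M rfl hM.1 (hM.2.le.trans hN₂T)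
        exact (Subgroup.le_centralizer_iff.1 h1) (Subgroup.mem_zpowers l)
      have hmin : ∀ M : Subgroup G, X ≤ Subgroup.normalizer (M : Set G) → M ≤ N₂ →
          M = N₂ ∨ M ≤ N := by
        intro M hM hle
        by_cases h : M = N₂
        · exact Or.inl h
        · exact Or.inr (le_sSup ⟨hM, lt_of_le_of_ne hle h⟩)
      have hN₂R : N₂ ≤ R := hN₂T.trans hTR
      have hex : ∃ y ∈ N₂, ⁅y, l⁆ ∉ N := by
        by_contra hcon
        push Not at hcon
        apply hl2
        apply mem_centralizer_of_sectionCent p N₂ N (hR.to_le hN₂R) l (hXN₂ hlX) hcop _ hlN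
        refine ⟨hXN hlX, fun w hw => ?_⟩
        rw [← commutatorElement_inv]; exact N.inv_mem (hcon w hw)
      obtain ⟨y, hy, hyl⟩ := hex
      have hrel := relIndex_eq_prime_of_minimal p hp2 R X N N₂ hR hRX hXR hN₂R hNle hXN hXN₂ hmin l
        (hXN₂ hlX) hlN y hy hyl x hx (fun F hF => hxF F (hF.trans hN₂T))
      have hact := section_prime_action p N₂ N A hNle ((hN₂R.trans hRX).trans hXN) (hAX.trans hXN₂)
        (hAX.trans hXN) hrel
      have hls : l ∈ sectionCent N₂ N := sharp_le_of hact.1 hact.2 hl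
      apply hyl
      rw [← commutatorElement_inv]; exact N.inv_mem (hls.2 y hy)
  have hlT : l ∈ Subgroup.centralizer (T : Set G) := claim _ T rfl hXT le_rfl
  have hact := section_prime_action p R T A hTR hRT hAR hAT hidx
  have hls : l ∈ sectionCent R T := sharp_le_of hact.1 hact.2 hl
  exact mem_centralizer_of_sectionCent p R T hR l (hAR hlA) hcop hls hlT

/-- Every element of `A' A^(p-1)` has a `p`-power power centralizing `R`. -/
theorem narrow_main' [Finite G] (p : ℕ) [Fact p.Prime] (hp2 : p ≠ 2) (R T A : Subgroup G)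
    (hR : IsPGroup p R) (hTR : T ≤ R) (hRT : R ≤ Subgroup.normalizer (T : Set G))
    (hidx : T.relIndex R = p) (hAR : A ≤ Subgroup.normalizer (R : Set G))
    (hAT : A ≤ Subgroup.normalizer (T : Set G)) (x : G) (hx : x ∈ R)
    (hxF : ∀ F : Subgroup G, F ≤ T → (∀ f ∈ F, f ^ p = 1) → (∀ f ∈ F, Commute x f) →
      Nat.card F ≤ p) :
    ∀ l ∈ sharp p A, ∃ k : ℕ, l ^ p ^ k ∈ Subgroup.centralizer (R : Set G) := by
  intro l hl
  obtain ⟨m, hm⟩ := exists_pow_orderOf_coprime p l
  exact ⟨m, narrow_main p hp2 R T A hR hTR hRT hidx hAR hAT x hx hxF _ (Subgroup.pow_mem _ hl _) hm⟩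

end Cfsg.Agent.Lib.Helper24
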