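/-
Helper library (helper24): fixed-point-free automorphisms of `p`-groups in which all elements of order `p` are
central and form a subgroup of order at most `p ^ 2`: such a group is abelian if the automorphism has order
prime to `p - 1`.
-/
import Cfsg.Agent.Lib.Helper24.Narrow

set_option autoImplicit false
set_option linter.unusedSimpArgs false
set_option linter.unusedVariables false
set_option linter.style.haveILetI false

namespace Cfsg.Agent.Lib.Helper24

open scoped commutatorElement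

universe u

section general

variable {G : Type u} [Group G]

/-- If `a` acts fixed-point-freely on `R` and normalizes `N ≤ R`, then `r⁻¹ r^a ∈ N` forces `r ∈ N`. -/
theorem mem_of_kappa_mem [Finite G] (R N : Subgroup G) (a : G) (hNR : N ≤ R)
    (haN : a ∈ Subgroup.normalizer (N : Set G))
    (hfpf : ∀ r ∈ R, a * r = r * a → r = 1) (r : G) (hr : r ∈ R)
    (h : r⁻¹ * (a * r * a⁻¹) ∈ N) : r ∈ N := by
  let κ : N → N := fun n => ⟨(n : G)⁻¹ * (a * n * a⁻¹),
    N.mul_mem (N.inv_mem n.2) ((Subgroup.mem_normalizer_iff.1 haN n).1 n.2)⟩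
  have key : ∀ x ∈ R, ∀ y ∈ R, x⁻¹ * (a * x * a⁻¹) = y⁻¹ * (a * y * a⁻¹) → x = y := by
    intro x hx y hy hxy
    have h2 : y * x⁻¹ = a * (y * x⁻¹) * a⁻¹ := by
      have h3 : y * (x⁻¹ * (a * x * a⁻¹)) * (a * x⁻¹ * a⁻¹) =
          y * (y⁻¹ * (a * y * a⁻¹)) * (a * x⁻¹ * a⁻¹) := by rw [hxy]
      have h4 : y * (x⁻¹ * (a * x * a⁻¹)) * (a * x⁻¹ * a⁻¹) = y * x⁻¹ := by group
      have h5 : y * (y⁻¹ * (a * y * a⁻¹)) * (a * x⁻¹ * a⁻¹) = a * (y * x⁻¹) * a⁻¹ := by group
      exact h4.symm.trans (h3.trans h5)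
    have h1 : a * (y * x⁻¹) = (y * x⁻¹) * a := by
      calc a * (y * x⁻¹) = a * (y * x⁻¹) * a⁻¹ * a := by group
        _ = (y * x⁻¹) * a := by rw [← h2]
    have h6 := hfpf _ (R.mul_mem hy (R.inv_mem hx)) h1
    exact (mul_inv_eq_one.1 h6).symm
  have hinj : Function.Injective κ := by
    intro x y hxy
    apply Subtype.ext
    exact key x (hNR x.2) y (hNR y.2) (congrArg Subtype.val hxy)
  have hsurj := Finite.injective_iff_surjective.1 hinj
  obtain ⟨n, hn⟩ := hsurj ⟨_, h⟩
  have := key n (hNR n.2) r hr (congrArg Subtype.val hn)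
  rw [← this]; exact n.2

/-- An element of order prime to `p - 1` acts trivially on every invariant section of order `p`. -/
theorem mem_sectionCent_of_coprime (p : ℕ) [Fact p.Prime] (k : ℕ) (hk : k.Coprime (p - 1))
    (W Z : Subgroup G) (a : G) (hak : a ^ k = 1) (hZW : Z ≤ W)
    (hWZ : W ≤ Subgroup.normalizer (Z : Set G)) (haW : a ∈ Subgroup.normalizer (W : Set G))
    (haZ : a ∈ Subgroup.normalizer (Z : Set G)) (hidx : Z.relIndex W = p) :
    a ∈ sectionCent W Z := by
  have h1 := (section_prime_action p W Z (Subgroup.zpowers a) hZW hWZ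
    (by rw [Subgroup.zpowers_le]; exact haW) (by rw [Subgroup.zpowers_le]; exact haZ) hidx).2 a
    (Subgroup.mem_zpowers a)
  have h2 := Nat.gcd_eq_gcd_ab k (p - 1)
  rw [hk.gcd_eq_one] at h2
  have h3 : a = (a ^ k) ^ (Nat.gcdA k (p - 1)) * (a ^ (p - 1)) ^ (Nat.gcdB k (p - 1)) := by
    calc a = a ^ (((1 : ℕ) : ℤ)) := by simp
      _ = a ^ ((k : ℤ) * Nat.gcdA k (p - 1) + ((p - 1 : ℕ) : ℤ) * Nat.gcdB k (p - 1)) := by rw [h2]
      _ = _ := by rw [zpow_add, zpow_mul, zpow_mul, zpow_natCast, zpow_natCast]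
  rw [h3, hak, one_zpow, one_mul]
  exact Subgroup.zpow_mem _ h1 _

/-- A fixed-point-free element of order prime to `p - 1` has no invariant section of order `p`. -/
theorem no_section_of_fpf [Finite G] (p : ℕ) [Fact p.Prime] (k : ℕ) (hk : k.Coprime (p - 1))
    (R W Z : Subgroup G) (a : G) (hak : a ^ k = 1) (hWR : W ≤ R) (hZW : Z ≤ W)
    (hWZ : W ≤ Subgroup.normalizer (Z : Set G)) (haW : a ∈ Subgroup.normalizer (W : Set G))
    (haZ : a ∈ Subgroup.normalizer (Z : Set G))
    (hfpf : ∀ r ∈ R, a * r = r * a → r = 1) : Z.relIndex W ≠ p := by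
  intro hidx
  have hp : p.Prime := Fact.out
  have h2 := mem_sectionCent_of_coprime p k hk W Z a hak hZW hWZ haW haZ hidx
  have h3 : W ≤ Z := by
    intro w hw
    apply mem_of_kappa_mem R Z a (hZW.trans hWR) haZ hfpf w (hWR hw)
    have h4 : w⁻¹ * (a * w * a⁻¹) = w⁻¹ * ⁅a, w⁆ * w⁻¹⁻¹ := by
      rw [commutatorElement_def]; group
    rw [h4]
    exact (Subgroup.mem_normalizer_iff.1 (hWZ (W.inv_mem hw)) _).1 (h2.2 w hw)
  rw [Subgroup.relIndex_eq_one.2 h3] at hidx
  exact hp.one_lt.ne hidx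

theorem commutator_pow_eq_one_iff (g r : G) (hx : Commute ⁅g, r⁆ r) (hy : Commute ⁅g, r⁆ g) (n : ℕ) :
    ⁅g, r⁆ ^ n = 1 ↔ Commute (g ^ n) r := by
  have h1 := pow_mul_eq_of_commute r g hx hy n
  constructor
  · intro h
    rw [h, one_mul] at h1
    exact h1
  · intro h
    rw [h.eq, mul_assoc] at h1
    exact mul_eq_right.1 h1.symm

/-- The subgroup of `g ∈ R` with `g ^ p` central in `R` and `[g, R] ⊆ Ω₁(Z(R))`. -/
def upperOmega (p : ℕ) [Fact p.Prime] (hp2 : p ≠ 2) (R : Subgroup G) : Subgroup G where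
  carrier := {g | g ∈ R ∧ g ^ p ∈ Subgroup.centralizer (R : Set G) ∧
    ∀ r ∈ R, ⁅g, r⁆ ∈ omegaCenterOf p R}
  one_mem' := ⟨R.one_mem, by rw [one_pow]; exact Subgroup.one_mem _,
    fun r _ => by rw [commutatorElement_one_left]; exact Subgroup.one_mem _⟩
  mul_mem' := by
    rintro a b ⟨haR, hap, hac⟩ ⟨hbR, hbp, hbc⟩
    have h1 : ⁅b, a⁆ ∈ omegaCenterOf p R := hbc a haR
    have h2 : Commute ⁅b, a⁆ a := ((Subgroup.mem_centralizer_iff.1 h1.2.1) a haR).symm
    have h3 : Commute ⁅b, a⁆ b := ((Subgroup.mem_centralizer_iff.1 h1.2.1) b hbR).symm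
    have h4 : Commute (b ^ p) a := ((Subgroup.mem_centralizer_iff.1 hbp) a haR).symm
    refine ⟨R.mul_mem haR hbR, ?_, fun r hr => ?_⟩
    · rw [mul_pow_prime_of_commute p hp2 a b h2 h3 h4]; exact Subgroup.mul_mem _ hap hbp
    · rw [commutatorElement_mul_left_eq_conj_mul]
      refine Subgroup.mul_mem _ ?_ (hac r hr)
      exact (Subgroup.le_normalizer_iff.1
        (Subgroup.le_normalizer.trans (normalizer_le_normalizer_omegaCenterOf p R))) a haR _ (hbc r hr)
  inv_mem' := by
    rintro a ⟨haR, hap, hac⟩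
    refine ⟨R.inv_mem haR, by rw [inv_pow]; exact Subgroup.inv_mem _ hap, fun m hm => ?_⟩
    rw [commutatorElement_inv_left]
    have h1 : ⁅m, a⁆ ∈ omegaCenterOf p R := by
      rw [← commutatorElement_inv]; exact Subgroup.inv_mem _ (hac m hm)
    have := (Subgroup.le_normalizer_iff.1
      (Subgroup.le_normalizer.trans (normalizer_le_normalizer_omegaCenterOf p R))) a⁻¹
      (R.inv_mem haR) _ h1
    simpa using this

theorem normalizer_le_normalizer_upperOmega (p : ℕ) [Fact p.Prime] (hp2 : p ≠ 2) (R : Subgroup G) :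
    Subgroup.normalizer (R : Set G) ≤
      Subgroup.normalizer ((upperOmega p hp2 R : Subgroup G) : Set G) := by
  rw [Subgroup.le_normalizer_iff]
  rintro g hg c ⟨hcR, hcp, hcc⟩
  refine ⟨(Subgroup.mem_normalizer_iff.1 hg c).1 hcR, ?_, ?_⟩
  · rw [conj_pow]
    exact (Subgroup.le_normalizer_iff.1 (normalizer_le_normalizer_centralizer R)) g hg _ hcp
  · intro m hm
    have hginv : g⁻¹ ∈ Subgroup.normalizer (R : Set G) := Subgroup.inv_mem _ hg
    have h1 : g⁻¹ * m * g⁻¹⁻¹ ∈ R := (Subgroup.mem_normalizer_iff.1 hginv m).1 hm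
    have h2 := hcc _ h1
    have h3 : ⁅g * c * g⁻¹, m⁆ = g * ⁅c, g⁻¹ * m * g⁻¹⁻¹⁆ * g⁻¹ := by
      rw [conjugate_commutatorElement]; congr 1; group
    rw [h3]
    exact (Subgroup.le_normalizer_iff.1 (normalizer_le_normalizer_omegaCenterOf p R)) g hg _ h2

/-- The `p`-th power map on a subgroup `F` of `upperOmega`. -/
theorem pow_hom_card [Finite G] (p : ℕ) [Fact p.Prime] (hp2 : p ≠ 2) (R F T : Subgroup G)
    (hF : F ≤ upperOmega p hp2 R) (hT : ∀ x ∈ F, x ^ p ∈ T)
    (hker : ∀ x ∈ F, x ^ p = 1 → x ∈ omegaCenterOf p R) :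
    (omegaCenterOf p R).relIndex F ≤ Nat.card T ∧
      ((omegaCenterOf p R).relIndex F = Nat.card T → ∀ t ∈ T, ∃ x ∈ F, x ^ p = t) := by
  let π : F →* T := MonoidHom.mk' (fun x => ⟨(x : G) ^ p, hT x x.2⟩) (by
    intro a b
    apply Subtype.ext
    show ((a : G) * (b : G)) ^ p = (a : G) ^ p * (b : G) ^ p
    obtain ⟨haR, hap, hac⟩ := hF a.2
    obtain ⟨hbR, hbp, hbc⟩ := hF b.2
    have h1 := hbc a haR
    exact mul_pow_prime_of_commute p hp2 (a : G) (b : G)
      (((Subgroup.mem_centralizer_iff.1 h1.2.1) a haR).symm)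
      (((Subgroup.mem_centralizer_iff.1 h1.2.1) b hbR).symm)
      (((Subgroup.mem_centralizer_iff.1 hbp) a haR).symm))
  have hkerπ : π.ker = (omegaCenterOf p R).subgroupOf F := by
    ext x
    rw [MonoidHom.mem_ker, Subgroup.mem_subgroupOf]
    constructor
    · intro h; exact hker x x.2 (congrArg Subtype.val h)
    · intro h; exact Subtype.ext h.2.2
  have hidx : (omegaCenterOf p R).relIndex F = Nat.card π.range := by
    rw [Subgroup.relIndex, ← hkerπ, Subgroup.index_ker]
  constructor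
  · rw [hidx]; exact Subgroup.card_le_card_group _
  · intro h t ht
    rw [hidx] at h
    have htop : π.range = ⊤ := Subgroup.eq_top_of_card_eq _ h
    obtain ⟨x, hx⟩ : (⟨t, ht⟩ : T) ∈ π.range := by rw [htop]; trivial
    exact ⟨x, x.2, congrArg Subtype.val hx⟩

end general

/-- **Main lemma.**  Let `R` be a normal `p`-subgroup (`p` odd) in which all elements of order `p` are central
and every subgroup of exponent `p` has order at most `p ^ 2`.  If `a` acts fixed-point-freely on `R` and has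
order prime to `p - 1`, then `R` is abelian. -/
theorem fpf_central_abelian_aux (p : ℕ) [Fact p.Prime] (hp2 : p ≠ 2) (k : ℕ) (hk : k.Coprime (p - 1))
    (n : ℕ) :
    ∀ (G : Type u) [Group G] [Finite G] (R : Subgroup G) (a : G),
      Nat.card R ≤ n → R.Normal → IsPGroup p R → a ^ k = 1 →
      (∀ r ∈ R, a * r = r * a → r = 1) →
      (∀ x ∈ R, x ^ p = 1 → x ∈ Subgroup.centralizer (R : Set G)) →
      (∀ F : Subgroup G, F ≤ R → (∀ x ∈ F, x ^ p = 1) → Nat.card F ≤ p ^ 2) →
      R ≤ Subgroup.centralizer (R : Set G) := by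
  induction n with
  | zero =>
    intro G _ _ R a hcard
    exact absurd hcard (by have := Nat.card_pos (α := R); omega)
  | succ n ih =>
    intro G _ _ R a hcard hRn hR hak hfpf hcent hrank
    classical
    by_contra hnab
    have hp : p.Prime := Fact.out
    have hNR : ∀ g : G, g ∈ Subgroup.normalizer (R : Set G) := fun g => by
      rw [Subgroup.normalizer_eq_top]; trivial
    set E := omegaCenterOf p R with hE
    set Z := R ⊓ Subgroup.centralizer (R : Set G) with hZ
    set M := upperOmega p hp2 R with hM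
    have hER : E ≤ R := fun x hx => hx.1
    have hZR : Z ≤ R := inf_le_left
    have hEZ : E ≤ Z := fun x hx => ⟨hx.1, hx.2.1⟩
    have hEp : ∀ x ∈ E, x ^ p = 1 := fun x hx => hx.2.2
    have hEc : ∀ x ∈ E, ∀ r ∈ R, Commute x r := fun x hx r hr =>
      ((Subgroup.mem_centralizer_iff.1 hx.2.1) r hr).symm
    have hmemE : ∀ x ∈ R, x ^ p = 1 → x ∈ E := fun x hx hxp => ⟨hx, hcent x hx hxp, hxp⟩
    have hMR : M ≤ R := fun x hx => hx.1
    have hZM : Z ≤ M := by
      intro z hz
      refine ⟨hz.1, Subgroup.pow_mem _ hz.2 p, fun r hr => ?_⟩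
      have : Commute z r := ((Subgroup.mem_centralizer_iff.1 hz.2) r hr).symm
      rw [this.commutator_eq]; exact Subgroup.one_mem _
    have hEM : E ≤ M := hEZ.trans hZM
    have hNE : ∀ g : G, g ∈ Subgroup.normalizer (E : Set G) := fun g =>
      normalizer_le_normalizer_omegaCenterOf p R (hNR g)
    have hNM : ∀ g : G, g ∈ Subgroup.normalizer (M : Set G) := fun g =>
      normalizer_le_normalizer_upperOmega p hp2 R (hNR g)
    have hNZ : ∀ g : G, g ∈ Subgroup.normalizer (Z : Set G) := fun g =>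
      Subgroup.inf_normalizer_le_normalizer_inf ⟨hNR g, normalizer_le_normalizer_centralizer R (hNR g)⟩
    have hEcard : Nat.card E ≤ p ^ 2 := hrank E hER hEp
    -- Step 1: an element of `M` outside `Z`
    have hRZ : ¬ R ≤ Z := fun h => hnab (h.trans inf_le_right)
    obtain ⟨f, hfR, hfZ, hfc⟩ := exists_central_mod hR.isNilpotent le_rfl Subgroup.le_normalizer hRZ
    have hfS : f ∈ sectionCent R Z := ⟨hNZ f, hfc⟩
    obtain ⟨m, hm⟩ := hR ⟨f, hfR⟩
    have hex : ∃ i, f ^ p ^ i ∈ Z := ⟨m, by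
      have h1 : f ^ p ^ m = 1 := congrArg Subtype.val hm
      rw [h1]; exact Z.one_mem⟩
    have hi0 := Nat.find_spec hex
    have hi0pos : Nat.find hex ≠ 0 := by
      intro h0
      rw [h0, pow_zero, pow_one] at hi0
      exact hfZ hi0
    obtain ⟨j, hj⟩ := Nat.exists_eq_succ_of_ne_zero hi0pos
    have hjnot : f ^ p ^ j ∉ Z := Nat.find_min hex (by omega)
    set g0 := f ^ p ^ j with hg0
    have hg0R : g0 ∈ R := R.pow_mem hfR _
    have hg0p : g0 ^ p ∈ Z := by
      rw [hg0, ← pow_mul, ← pow_succ]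
      rw [hj] at hi0; exact hi0
    have hg0S : g0 ∈ sectionCent R Z := Subgroup.pow_mem _ hfS _
    have hg0M : g0 ∈ M := by
      refine ⟨hg0R, hg0p.2, fun r hr => ?_⟩
      have hc := hg0S.2 r hr
      apply hmemE _ hc.1
      have hx : Commute ⁅g0, r⁆ r := ((Subgroup.mem_centralizer_iff.1 hc.2) r hr).symm
      have hy : Commute ⁅g0, r⁆ g0 := ((Subgroup.mem_centralizer_iff.1 hc.2) g0 hg0R).symm
      exact (commutator_pow_eq_one_iff g0 r hx hy p).2
        ((Subgroup.mem_centralizer_iff.1 hg0p.2) r hr).symm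
    -- Step 2: `|M : Z| = p ^ 2` and the power map `M → Z` is onto
    have hZltM : Z < M := lt_of_le_of_ne hZM (fun h => hjnot (by rw [h]; exact hg0M))
    obtain ⟨h1, h2⟩ := pow_hom_card p hp2 R M Z le_rfl (fun x hx => ⟨R.pow_mem hx.1 p, hx.2.1⟩)
      (fun x hx hxp => hmemE x hx.1 hxp)
    rw [← hE] at h1 h2
    have e1 := relIndex_mul_card' hEM
    have e2 := relIndex_mul_card' hZM
    have hZpos : 0 < Nat.card Z := Nat.card_pos
    have hle : Z.relIndex M ≤ p ^ 2 := by
      have : Z.relIndex M * Nat.card Z ≤ p ^ 2 * Nat.card Z := by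
        rw [e2, ← e1]
        calc E.relIndex M * Nat.card E ≤ Nat.card Z * p ^ 2 := Nat.mul_le_mul h1 hEcard
          _ = p ^ 2 * Nat.card Z := mul_comm _ _
      exact Nat.le_of_mul_le_mul_right this hZpos
    have hne1 : Z.relIndex M ≠ 1 := fun h => hZltM.not_ge (Subgroup.relIndex_eq_one.1 h)
    have hnep : Z.relIndex M ≠ p :=
      no_section_of_fpf p k hk R M Z a hak hMR hZM (fun x _ => hNZ x) (hNM a) (hNZ a) hfpf
    obtain ⟨t, ht⟩ : ∃ t, Z.relIndex M = p ^ t := by
      obtain ⟨s, hs⟩ := IsPGroup.iff_card.1 (hR.to_le hMR)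
      have hd : Z.relIndex M ∣ p ^ s := by rw [← hs, ← e2]; exact Dvd.intro _ rfl
      obtain ⟨t, -, ht⟩ := (Nat.dvd_prime_pow hp).1 hd
      exact ⟨t, ht⟩
    have ht2 : t = 2 := by
      have : t ≤ 2 := by rw [ht] at hle; exact (Nat.pow_le_pow_iff_right hp.one_lt).1 hle
      interval_cases t
      · rw [pow_zero] at ht; exact absurd ht hne1
      · rw [pow_one] at ht; exact absurd ht hnep
      · rfl
    subst ht2
    have hsurj : ∀ z ∈ Z, ∃ x ∈ M, x ^ p = z := by
      apply h2
      have e3 : E.relIndex M * Nat.card E = p ^ 2 * Nat.card Z := by rw [e1, ← e2, ht]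
      by_contra hne
      have hlt : E.relIndex M < Nat.card Z := lt_of_le_of_ne h1 hne
      have : E.relIndex M * Nat.card E < Nat.card Z * p ^ 2 := by
        calc E.relIndex M * Nat.card E ≤ E.relIndex M * p ^ 2 := Nat.mul_le_mul_left _ hEcard
          _ < Nat.card Z * p ^ 2 := Nat.mul_lt_mul_of_pos_right hlt (pow_pos hp.pos 2)
      rw [e3, mul_comm] at this
      exact lt_irrefl _ this
    -- Step 3
    have hC5 : ∀ x ∈ R, x ^ p ∈ Z → x ∈ M := by
      intro x hx hxp
      obtain ⟨m, hm, hmp⟩ := hsurj (x ^ p)⁻¹ (Z.inv_mem hxp)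
      have hc := hm.2.2 x hx
      have c1 : Commute ⁅m, x⁆ x := hEc _ hc x hx
      have c2 : Commute ⁅m, x⁆ m := hEc _ hc m hm.1
      have c3 : Commute (m ^ p) x := ((Subgroup.mem_centralizer_iff.1 hm.2.1) x hx).symm
      have h4 : (x * m) ^ p = 1 := by
        rw [mul_pow_prime_of_commute p hp2 x m c1 c2 c3, hmp, mul_inv_cancel]
      have h5 : x * m ∈ M := hEM (hmemE _ (R.mul_mem hx hm.1) h4)
      have h6 : x = (x * m) * m⁻¹ := by group
      rw [h6]; exact M.mul_mem h5 (M.inv_mem hm)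
    -- Step 4: the quotient by `E`
    haveI hEn : E.Normal := Subgroup.normalizer_eq_top_iff.1 (by
      rw [eq_top_iff]; intro g _; exact hNE g)
    have hEbot : E ≠ ⊥ := by
      intro hb
      apply hjnot
      refine Subgroup.mem_inf.2 ⟨hg0R, ?_⟩
      rw [Subgroup.mem_centralizer_iff]
      intro r hr
      have h3 : ⁅g0, r⁆ ∈ E := hg0M.2.2 r hr
      rw [hb, Subgroup.mem_bot] at h3
      exact (commutatorElement_eq_one_iff_mul_comm.1 h3).symm
    set f' := QuotientGroup.mk' E with hf'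
    have hker : f'.ker = E := QuotientGroup.ker_mk' E
    have hf1 : ∀ x : G, f' x = 1 ↔ x ∈ E := fun x => QuotientGroup.eq_one_iff x
    have hcardmap : ∀ K : Subgroup G, Nat.card (K.map f') = E.relIndex K := fun K => by
      rw [← Subgroup.relIndex_ker, hker]
    have hcardq : Nat.card (R.map f') ≤ n := by
      rw [hcardmap]
      have e4 := relIndex_mul_card' hER
      have h2E : 2 ≤ Nat.card E := by
        have h0 : Nat.card E ≠ 1 := fun h => hEbot (Subgroup.card_eq_one.1 h)
        have := Nat.card_pos (α := E)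
        omega
      have h3 : E.relIndex R * 2 ≤ n + 1 := by
        calc E.relIndex R * 2 ≤ E.relIndex R * Nat.card E := Nat.mul_le_mul_left _ h2E
          _ = Nat.card R := e4
          _ ≤ n + 1 := hcard
      have hpos : 0 < E.relIndex R := by
        rcases Nat.eq_zero_or_pos (E.relIndex R) with h | h
        · rw [h, zero_mul] at e4
          have := Nat.card_pos (α := R)
          omega
        · exact h
      omega
    have q_fpf : ∀ r ∈ R.map f', f' a * r = r * f' a → r = 1 := by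
      rintro _ ⟨r, hr, rfl⟩ h
      rw [← map_mul, ← map_mul] at h
      have h3 : (r * a)⁻¹ * (a * r) ∈ E := by
        rw [← hf1, map_mul, map_inv, h, inv_mul_cancel]
      have h4 : r⁻¹ * (a * r * a⁻¹) ∈ E := by
        have h5 := (Subgroup.mem_normalizer_iff.1 (hNE a) _).1 h3
        have h6 : a * ((r * a)⁻¹ * (a * r)) * a⁻¹ = r⁻¹ * (a * r * a⁻¹) := by group
        rwa [h6] at h5
      exact (hf1 r).2 (mem_of_kappa_mem R E a hER (hNE a) hfpf r hr h4)
    have q_cent : ∀ x ∈ R.map f', x ^ p = 1 →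
        x ∈ Subgroup.centralizer ((R.map f' : Subgroup (G ⧸ E)) : Set (G ⧸ E)) := by
      rintro _ ⟨x, hx, rfl⟩ hxp
      rw [← map_pow, hf1] at hxp
      have h3 := hC5 x hx (hEZ hxp)
      rw [Subgroup.mem_centralizer_iff]
      rintro _ ⟨r, hr, rfl⟩
      have h4 : f' ⁅x, r⁆ = 1 := (hf1 _).2 (h3.2.2 r hr)
      rw [map_commutatorElement, commutatorElement_eq_one_iff_mul_comm] at h4
      exact h4.symm
    have q_rank : ∀ F : Subgroup (G ⧸ E), F ≤ R.map f' → (∀ x ∈ F, x ^ p = 1) →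
        Nat.card F ≤ p ^ 2 := by
      intro F hF hFp
      set F0 := R ⊓ F.comap f' with hF0
      have hmap : F0.map f' = F := by
        apply le_antisymm
        · rintro _ ⟨x, hx, rfl⟩; exact hx.2
        · intro y hy
          obtain ⟨x, hx, rfl⟩ := hF hy
          exact ⟨x, ⟨hx, hy⟩, rfl⟩
      have hF0p : ∀ x ∈ F0, x ^ p ∈ E := by
        intro x hx
        have h3 := hFp _ hx.2
        rw [← map_pow, hf1] at h3
        exact h3
      have hF0M : F0 ≤ M := fun x hx => hC5 x hx.1 (hEZ (hF0p x hx))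
      have h4 := (pow_hom_card p hp2 R F0 E hF0M hF0p (fun x hx hxp => hmemE x hx.1 hxp)).1
      rw [← hmap, hcardmap]
      exact h4.trans hEcard
    have hab := ih (G ⧸ E) (R.map f') (f' a) hcardq (hRn.map f' (QuotientGroup.mk'_surjective E))
      (hR.map f') (by rw [← map_pow, hak, map_one]) q_fpf q_cent q_rank
    -- Step 6
    have hcommE : ∀ x ∈ R, ∀ y ∈ R, ⁅x, y⁆ ∈ E := by
      intro x hx y hy
      have h3 := hab (Subgroup.mem_map_of_mem f' hx)
      have h4 := (Subgroup.mem_centralizer_iff.1 h3) _ (Subgroup.mem_map_of_mem f' hy)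
      rw [← hf1, map_commutatorElement, commutatorElement_eq_one_iff_mul_comm]
      exact h4.symm
    have hRM : R ≤ M := by
      intro g hg
      refine ⟨hg, ?_, fun r hr => hcommE g hg r hr⟩
      rw [Subgroup.mem_centralizer_iff]
      intro r hr
      have hc := hcommE g hg r hr
      exact ((commutator_pow_eq_one_iff g r (hEc _ hc r hr) (hEc _ hc g hg) p).1 (hEp _ hc)).symm.eq
    have hMeq : M = R := le_antisymm hMR hRM
    rw [hMeq] at ht
    -- Step 9
    obtain ⟨h0, hh0R, hh0⟩ : ∃ h0 ∈ R, h0 * g0 ≠ g0 * h0 := by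
      by_contra hcon
      push Not at hcon
      exact hjnot ⟨hg0R, Subgroup.mem_centralizer_iff.2 hcon⟩
    set c := ⁅g0, h0⁆ with hc
    have hcE : c ∈ E := hcommE g0 hg0R h0 hh0R
    have hc1 : c ≠ 1 := fun h => hh0 (commutatorElement_eq_one_iff_mul_comm.1 h).symm
    set D := Subgroup.zpowers c with hD
    have hbig : ∀ K : Subgroup G, K ≤ R → Z ≤ K → g0 ∈ K → h0 ∈ K → R ≤ K := by
      intro K hKR hZK hgK hhK
      set K1 := K ⊓ Subgroup.centralizer ({g0} : Set G) with hK1
      have hZK1 : Z < K1 := by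
        refine lt_of_le_of_ne (le_inf hZK ?_) ?_
        · intro z hz
          rw [Subgroup.mem_centralizer_iff]
          rintro _ rfl
          exact (Subgroup.mem_centralizer_iff.1 hz.2) _ hg0R
        · intro h
          apply hjnot
          rw [h]
          exact Subgroup.mem_inf.2 ⟨hgK, by rw [Subgroup.mem_centralizer_iff]; rintro _ rfl; rfl⟩
      have hK1K : K1 < K := by
        refine lt_of_le_of_ne inf_le_left ?_
        intro h
        have h3 : h0 ∈ K1 := by rw [h]; exact hhK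
        exact hh0 ((Subgroup.mem_centralizer_iff.1 h3.2) g0 rfl).symm
      obtain ⟨i, hi⟩ := IsPGroup.iff_card.1 (hR.to_le hZR)
      obtain ⟨j1, hj1⟩ := IsPGroup.iff_card.1 (hR.to_le (hK1K.le.trans hKR))
      obtain ⟨l, hl⟩ := IsPGroup.iff_card.1 (hR.to_le hKR)
      have c1 := card_lt_of_lt hZK1
      have c2 := card_lt_of_lt hK1K
      rw [hi, hj1] at c1
      rw [hj1, hl] at c2
      have c1' := (Nat.pow_lt_pow_iff_right hp.one_lt).1 c1
      have c2' := (Nat.pow_lt_pow_iff_right hp.one_lt).1 c2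
      have e5 := relIndex_mul_card' hZR
      rw [ht, hi, ← pow_add] at e5
      have h4 : Nat.card R ≤ Nat.card K := by
        rw [← e5, hl]; exact Nat.pow_le_pow_right hp.pos (by omega)
      exact (Subgroup.eq_of_le_of_card_ge hKR h4).ge
    have hmulr : ∀ u ∈ R, ∀ v ∈ R, ∀ w ∈ R, ⁅u, v * w⁆ = ⁅u, v⁆ * ⁅u, w⁆ := by
      intro u hu v hv w hw
      rw [commutatorElement_mul_right_eq_mul_conj]
      have h3 : Commute v ⁅u, w⁆ := (hEc _ (hcommE u hu w hw) v hv).symm
      rw [mul_assoc, mul_assoc, ← mul_assoc v, h3.eq, mul_assoc, mul_inv_cancel, mul_one]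
    have hgen : ∀ u ∈ R, ⁅u, g0⁆ ∈ D → ⁅u, h0⁆ ∈ D → ∀ v ∈ R, ⁅u, v⁆ ∈ D := by
      intro u hu hug huh
      let K : Subgroup G :=
        { carrier := {v | v ∈ R ∧ ⁅u, v⁆ ∈ D}
          one_mem' := ⟨R.one_mem, by rw [commutatorElement_one_right]; exact D.one_mem⟩
          mul_mem' := by
            rintro v w ⟨hv, hv'⟩ ⟨hw, hw'⟩
            exact ⟨R.mul_mem hv hw, by rw [hmulr u hu v hv w hw]; exact D.mul_mem hv' hw'⟩
          inv_mem' := by
            rintro v ⟨hv, hv'⟩
            refine ⟨R.inv_mem hv, ?_⟩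
            have h3 := hmulr u hu v hv v⁻¹ (R.inv_mem hv)
            rw [mul_inv_cancel, commutatorElement_one_right] at h3
            rw [← inv_eq_of_mul_eq_one_right h3.symm]
            exact D.inv_mem hv' }
      have hK := hbig K (fun x hx => hx.1)
        (fun z hz => ⟨hz.1, by
          have h3 : Commute u z := (Subgroup.mem_centralizer_iff.1 hz.2) u hu
          rw [h3.commutator_eq]; exact D.one_mem⟩)
        ⟨hg0R, hug⟩ ⟨hh0R, huh⟩
      intro v hv
      exact (hK hv).2
    have hgD : ∀ v ∈ R, ⁅g0, v⁆ ∈ D :=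
      hgen g0 hg0R (by rw [commutatorElement_self]; exact D.one_mem) (Subgroup.mem_zpowers c)
    have hhD : ∀ v ∈ R, ⁅h0, v⁆ ∈ D :=
      hgen h0 hh0R (by rw [← commutatorElement_inv]; exact D.inv_mem (Subgroup.mem_zpowers c))
        (by rw [commutatorElement_self]; exact D.one_mem)
    have hall : ∀ u ∈ R, ∀ v ∈ R, ⁅u, v⁆ ∈ D := fun u hu =>
      hgen u hu (by rw [← commutatorElement_inv]; exact D.inv_mem (hgD u hu))
        (by rw [← commutatorElement_inv]; exact D.inv_mem (hhD u hu))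
    have hRR : ⁅R, R⁆ = D := le_antisymm (Subgroup.commutator_le.2 hall)
      (by rw [hD, Subgroup.zpowers_le]; exact Subgroup.commutator_mem_commutator hg0R hh0R)
    have haD : a ∈ Subgroup.normalizer (D : Set G) := by
      rw [← hRR]; exact normalizer_inf_le_normalizer_commutator R R ⟨hNR a, hNR a⟩
    have hDcard : Nat.card D = p := by
      rw [hD, Nat.card_zpowers]; exact orderOf_eq_prime (hEp c hcE) hc1
    have hNbot : ∀ g : G, g ∈ Subgroup.normalizer (((⊥ : Subgroup G)) : Set G) := fun g => by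
      have h0 : Subgroup.normalizer (((⊥ : Subgroup G)) : Set G) = ⊤ := Subgroup.normalizer_eq_top _
      rw [h0]; trivial
    exact no_section_of_fpf p k hk R D ⊥ a hak
      (by rw [hD, Subgroup.zpowers_le]; exact hER hcE) bot_le (fun x _ => hNbot x) haD (hNbot a) hfpf
      (by rw [Subgroup.relIndex_bot_left]; exact hDcard)


/-- Ambient form of `fpf_central_abelian_aux` (no normality assumption on `R`). -/
theorem fpf_central_abelian {G : Type u} [Group G] [Finite G] (p : ℕ) [Fact p.Prime] (hp2 : p ≠ 2)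
    (k : ℕ) (hk : k.Coprime (p - 1)) (R : Subgroup G) (a : G)
    (ha : a ∈ Subgroup.normalizer (R : Set G))
    (hR : IsPGroup p R) (hak : a ^ k = 1) (hfpf : ∀ r ∈ R, a * r = r * a → r = 1)
    (hcent : ∀ x ∈ R, x ^ p = 1 → x ∈ Subgroup.centralizer (R : Set G))
    (hrank : ∀ F : Subgroup G, F ≤ R → (∀ x ∈ F, x ^ p = 1) → Nat.card F ≤ p ^ 2) :
    R ≤ Subgroup.centralizer (R : Set G) := by
  set N := Subgroup.normalizer (R : Set G) with hN
  have hRN : R ≤ N := Subgroup.le_normalizer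
  have h := fpf_central_abelian_aux p hp2 k hk (Nat.card (R.subgroupOf N)) N (R.subgroupOf N) ⟨a, ha⟩
    le_rfl Subgroup.normal_in_normalizer hR.comap_subtype (Subtype.ext (by simpa using hak)) ?_ ?_ ?_
  · intro x hx
    rw [Subgroup.mem_centralizer_iff]
    intro y hy
    have h1 := h (show (⟨x, hRN hx⟩ : N) ∈ R.subgroupOf N from hx)
    have h2 := (Subgroup.mem_centralizer_iff.1 h1) ⟨y, hRN hy⟩ hy
    exact congrArg Subtype.val h2
  · intro r hr hc
    exact Subtype.ext (hfpf r hr (congrArg Subtype.val hc))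
  · intro x hx hxp
    rw [Subgroup.mem_centralizer_iff]
    intro r hr
    exact Subtype.ext ((Subgroup.mem_centralizer_iff.1 (hcent x hx (congrArg Subtype.val hxp))) r hr)
  · intro F hF hFp
    have h1 := hrank (F.map N.subtype) (by rintro _ ⟨x, hx, rfl⟩; exact hF hx)
      (by rintro _ ⟨x, hx, rfl⟩; exact congrArg Subtype.val (hFp x hx))
    rwa [Subgroup.card_map_of_injective N.subtype_injective] at h1

end Cfsg.Agent.Lib.Helper24
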