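/-
Helper library (helper24): narrow p-groups of rank at least 3 -- the data `(T, x)` needed by `narrow_main`.
-/
import Cfsg.Agent.Lib.Helper24.Narrow
import Cfsg.Agent.Lib.Helper24.Rank2Fitting
import Cfsg.Agent.S1453

set_option autoImplicit false
set_option linter.unusedSimpArgs false
set_option linter.unusedVariables false
set_option linter.style.haveILetI false

namespace Cfsg.Agent.Lib.Helper24

open scoped commutatorElement

/-- In a maximal elementary abelian subgroup `E`, every element of order `p` centralizing `E` lies in `E`. -/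
theorem mem_of_maximal_elementaryAbelian {P : Type*} [Group P] (p : ℕ) (E : Subgroup P)
    (hE : Cfsg.IsElementaryAbelian p E)
    (hEmax : ∀ B : Subgroup P, Cfsg.IsElementaryAbelian p B → E ≤ B → B = E)
    (f : P) (hf : f ∈ Subgroup.centralizer (E : Set P)) (hfp : f ^ p = 1) : f ∈ E := by
  have h := hEmax (adjoin E f hf) ⟨adjoin_comm hf hE.1, adjoin_pow hf p hE.2 hfp⟩ (le_adjoin E f hf)
  rw [← h]; exact self_mem_adjoin E f hf

theorem le_of_dvd_sq_of_lt {p n : ℕ} (hp : p.Prime) (hdvd : n ∣ p ^ 2) (hlt : n < p ^ 2) : n ≤ p := by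
  obtain ⟨k, hk, rfl⟩ := (Nat.dvd_prime_pow hp).1 hdvd
  interval_cases k
  · rw [pow_zero]; exact hp.pos
  · simp
  · exact absurd hlt (lt_irrefl _)

/-- Narrow data from a maximal elementary abelian subgroup of order `p ^ 2` (uses S1453). -/
theorem exists_narrow_data {P : Type*} [Group P] [Finite P] (p : ℕ) [Fact p.Prime] (hp2 : p ≠ 2)
    (hP : IsPGroup p P) (hr : ¬ Cfsg.PRankLE p 2 P)
    (E : Subgroup P) (hE : Cfsg.IsElementaryAbelian p E) (hE2 : Nat.card E = p ^ 2)
    (hEmax : ∀ B : Subgroup P, Cfsg.IsElementaryAbelian p B → E ≤ B → B = E) :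
    ∃ (T : Subgroup P) (x : P), T.Characteristic ∧ T.index = p ∧
      ∀ F : Subgroup P, F ≤ T → (∀ f ∈ F, f ^ p = 1) → (∀ f ∈ F, Commute x f) → Nat.card F ≤ p := by
  have hp : p.Prime := Fact.out
  obtain ⟨hET, hZ, _, hTc, hTi⟩ := Cfsg.Agent.S1453.result p hp2 hP hr E hE hE2 hEmax
  set T := Subgroup.centralizer ((Subgroup.closure
    {x : P | x ∈ Subgroup.upperCentralSeries P 2 ∧ x ^ p = 1} : Subgroup P) : Set P) with hT
  set Z := Subgroup.closure {x : P | x ∈ Subgroup.center P ∧ x ^ p = 1} with hZdef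
  obtain ⟨x, hxE, hxT⟩ := SetLike.not_le_iff_exists.1 hET
  refine ⟨T, x, hTc, hTi, ?_⟩
  have hmem := mem_of_maximal_elementaryAbelian p E hE hEmax
  have hZc : Z ≤ Subgroup.center P := (Subgroup.closure_le _).2 fun z hz => hz.1
  have hZE : Z ≤ E := (Subgroup.closure_le _).2 fun z hz =>
    hmem z (Subgroup.center_le_centralizer _ hz.1) hz.2
  have hZT : Z ≤ T := hZc.trans (Subgroup.center_le_centralizer _)
  have hxZ : x ∉ Z := fun h => hxT (hZT h)
  have hcZ : ∀ g : P, g ∈ Subgroup.centralizer (Z : Set P) := by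
    intro g
    rw [Subgroup.mem_centralizer_iff]
    intro z hz
    exact ((Subgroup.mem_center_iff.1 (hZc hz)) g).symm
  have hEeq : adjoin Z x (hcZ x) = E := by
    apply Subgroup.eq_of_le_of_card_ge (adjoin_le (hcZ x) hZE hxE)
    have h1 : Z < adjoin Z x (hcZ x) :=
      lt_of_le_of_ne (le_adjoin Z x _) (fun h => hxZ (h ▸ self_mem_adjoin Z x (hcZ x)))
    have h2 := card_lt_of_lt h1
    have h3 : Nat.card (adjoin Z x (hcZ x)) ∣ p ^ 2 :=
      hE2 ▸ Subgroup.card_dvd_of_le (adjoin_le (hcZ x) hZE hxE)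
    rw [hZ] at h2
    rw [hE2, eq_sq_of_dvd_of_lt hp h3 h2]
  intro F hFT hFp hFx
  have hFE : F ≤ E ⊓ T := fun f hf =>
    ⟨hmem f (by rw [← hEeq]; exact mem_centralizer_adjoin (hcZ x) (hcZ f) (hFx f hf)) (hFp f hf),
      hFT hf⟩
  have hlt : E ⊓ T < E := lt_of_le_of_ne inf_le_left (fun h => hxT (by
    have : x ∈ E ⊓ T := by rw [h]; exact hxE
    exact this.2))
  have h4 := card_lt_of_lt hlt
  rw [hE2] at h4
  have h5 : Nat.card (E ⊓ T : Subgroup P) ∣ p ^ 2 := hE2 ▸ Subgroup.card_dvd_of_le inf_le_left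
  exact (Nat.le_of_dvd Nat.card_pos (Subgroup.card_dvd_of_le hFE)).trans (le_of_dvd_sq_of_lt hp h5 h4)

/-- A maximal elementary abelian subgroup of a `p`-group of rank at least 2 has order greater than `p`. -/
theorem lt_card_of_maximal_elementaryAbelian {P : Type*} [Group P] [Finite P] (p : ℕ) [Fact p.Prime]
    (hP : IsPGroup p P) (E : Subgroup P) (hE : Cfsg.IsElementaryAbelian p E)
    (hEmax : ∀ B : Subgroup P, Cfsg.IsElementaryAbelian p B → E ≤ B → B = E)
    (B : Subgroup P) (hB : Cfsg.IsElementaryAbelian p B) (hBcard : p < Nat.card B) :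
    p < Nat.card E := by
  have hp : p.Prime := Fact.out
  by_contra hle
  have hmem := mem_of_maximal_elementaryAbelian p E hE hEmax
  haveI : Nontrivial P := by
    by_contra hnt
    rw [not_nontrivial_iff_subsingleton] at hnt
    have : Nat.card B = 1 := Nat.card_eq_one_iff_unique.2 ⟨inferInstance, ⟨1⟩⟩
    have := hp.one_lt
    omega
  haveI := hP.center_nontrivial
  have hcd : p ∣ Nat.card (Subgroup.center P) := by
    obtain ⟨k, hk⟩ := IsPGroup.iff_card.1 (hP.to_subgroup (Subgroup.center P))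
    have hk0 : k ≠ 0 := by
      rintro rfl
      rw [pow_zero] at hk
      have := Finite.one_lt_card (α := Subgroup.center P)
      omega
    rw [hk]; exact dvd_pow_self p hk0
  obtain ⟨z, hz⟩ := exists_prime_orderOf_dvd_card' p hcd
  have hz1 : (z : P) ≠ 1 := by
    intro h
    have : z = 1 := Subtype.ext h
    rw [this, orderOf_one] at hz
    exact hp.one_lt.ne hz
  have hzp : (z : P) ^ p = 1 := by
    have := pow_orderOf_eq_one z
    rw [hz] at this
    exact congrArg Subtype.val this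
  have hzE : (z : P) ∈ E := hmem z (Subgroup.center_le_centralizer _ z.2) hzp
  have hord : orderOf (z : P) = p := orderOf_eq_prime hzp hz1
  have hEz : E = Subgroup.zpowers (z : P) := by
    symm
    apply Subgroup.eq_of_le_of_card_ge (Subgroup.zpowers_le.2 hzE)
    rw [Nat.card_zpowers, hord]
    exact not_lt.1 hle
  have hBE : B ≤ E := by
    intro b hb
    apply hmem b _ (hB.2 b hb)
    rw [hEz, Subgroup.mem_centralizer_iff]
    intro w hw
    have hwc : w ∈ Subgroup.center P := (Subgroup.zpowers_le.2 z.2) hw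
    exact ((Subgroup.mem_center_iff.1 hwc) b).symm
  have := Nat.le_of_dvd Nat.card_pos (Subgroup.card_dvd_of_le hBE)
  omega

/-- Narrow data from an elementary abelian subgroup `E` all of whose elementary abelian overgroups have
order at most `p ^ 2`. -/
theorem exists_narrow_data_of_bound {P : Type*} [Group P] [Finite P] (p : ℕ) [Fact p.Prime]
    (hp2 : p ≠ 2) (hP : IsPGroup p P) (hr : ¬ Cfsg.PRankLE p 2 P)
    (E : Subgroup P) (hE : Cfsg.IsElementaryAbelian p E)
    (hbound : ∀ B : Subgroup P, Cfsg.IsElementaryAbelian p B → E ≤ B → Nat.card B ≤ p ^ 2) :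
    ∃ (T : Subgroup P) (x : P), T.Characteristic ∧ T.index = p ∧
      ∀ F : Subgroup P, F ≤ T → (∀ f ∈ F, f ^ p = 1) → (∀ f ∈ F, Commute x f) → Nat.card F ≤ p := by
  have hp : p.Prime := Fact.out
  haveI : Nonempty {B : Subgroup P // Cfsg.IsElementaryAbelian p B ∧ E ≤ B} := ⟨⟨E, hE, le_rfl⟩⟩
  obtain ⟨⟨E₂, hE₂, hEE₂⟩, hmax⟩ := Finite.exists_max
    (fun B : {B : Subgroup P // Cfsg.IsElementaryAbelian p B ∧ E ≤ B} => Nat.card B.1)
  have hEmax : ∀ B : Subgroup P, Cfsg.IsElementaryAbelian p B → E₂ ≤ B → B = E₂ := by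
    intro B hB hle
    exact (Subgroup.eq_of_le_of_card_ge hle (hmax ⟨B, hB, hEE₂.trans hle⟩)).symm
  have hle2 : Nat.card E₂ ≤ p ^ 2 := hbound E₂ hE₂ hEE₂
  have hr' := hr
  unfold Cfsg.PRankLE at hr'
  push Not at hr'
  obtain ⟨B, hBc, hBp, hBcard⟩ := hr'
  have hpp : p < p ^ 2 := by nlinarith [hp.two_le]
  have hlt := lt_card_of_maximal_elementaryAbelian p hP E₂ hE₂ hEmax B ⟨hBc, hBp⟩ (hpp.trans hBcard)
  obtain ⟨k, hk⟩ := IsPGroup.iff_card.1 (hP.to_subgroup E₂)
  have hcard : Nat.card E₂ = p ^ 2 := by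
    rw [hk] at hlt hle2 ⊢
    have h1 : k ≤ 2 := (Nat.pow_le_pow_iff_right hp.one_lt).1 hle2
    have h2 : 1 < k := by
      have : p ^ 1 < p ^ k := by rwa [pow_one]
      exact (Nat.pow_lt_pow_iff_right hp.one_lt).1 this
    have : k = 2 := by omega
    rw [this]
  exact exists_narrow_data p hp2 hP hr E₂ hE₂ hcard hEmax

variable {G : Type*} [Group G]

/-- Ambient form: if `↥R` carries narrow data, then for every `A ≤ N_G(R)` each element of `A' A^(p-1)` has a
`p`-power power centralizing `R`. -/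
theorem narrow_unipotent [Finite G] (p : ℕ) [Fact p.Prime] (hp2 : p ≠ 2) (R A : Subgroup G)
    (hR : IsPGroup p R) (hAR : A ≤ Subgroup.normalizer (R : Set G))
    (hdata : ∃ (T : Subgroup R) (x : R), T.Characteristic ∧ T.index = p ∧
      ∀ F : Subgroup R, F ≤ T → (∀ f ∈ F, f ^ p = 1) → (∀ f ∈ F, Commute x f) → Nat.card F ≤ p) :
    (∀ l ∈ sharp p A, (orderOf l).Coprime p → l ∈ Subgroup.centralizer (R : Set G)) ∧
      ∀ l ∈ sharp p A, ∃ k : ℕ, l ^ p ^ k ∈ Subgroup.centralizer (R : Set G) := by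
  obtain ⟨T, x, hTc, hTi, hF⟩ := hdata
  have hTR : T.map R.subtype ≤ R := Subgroup.map_subtype_le _
  have hN := normalizer_le_normalizer_map_of_characteristic R T
  have hsub : (T.map R.subtype).subgroupOf R = T :=
    Subgroup.comap_map_eq_self_of_injective R.subtype_injective T
  have hidx : (T.map R.subtype).relIndex R = p := by
    rw [Subgroup.relIndex, hsub, hTi]
  have hxF : ∀ F : Subgroup G, F ≤ T.map R.subtype → (∀ f ∈ F, f ^ p = 1) →
      (∀ f ∈ F, Commute (x : G) f) → Nat.card F ≤ p := by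
    intro F hFT hFp hFx
    have h1 := hF (F.subgroupOf R)
      (by rw [← hsub]; exact Subgroup.comap_mono hFT)
      (fun f hf => Subtype.ext (hFp f hf))
      (fun f hf => Subtype.ext (hFx f hf))
    rwa [Nat.card_congr (Subgroup.subgroupOfEquivOfLe (hFT.trans hTR)).toEquiv] at h1
  exact ⟨narrow_main p hp2 R _ A hR hTR (Subgroup.le_normalizer.trans hN) hidx hAR (hAR.trans hN) x x.2
      hxF,
    narrow_main' p hp2 R _ A hR hTR (Subgroup.le_normalizer.trans hN) hidx hAR (hAR.trans hN) x x.2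
      hxF⟩

/-- If every element of `G'` acts on each `O_p(G)` as a `p`-element, then `G' ≤ F(G)` (`G` solvable). -/
theorem commutator_le_fitting_of_unipotent [Finite G] [Group.IsSolvable G]
    (h1 : ∀ p : ℕ, p.Prime → ∀ x ∈ commutator G, ∃ k : ℕ,
      x ^ p ^ k ∈ Subgroup.centralizer (Cfsg.pCore p G : Set G)) :
    commutator G ≤ Cfsg.fittingSubgroup G := by
  have hCF : Subgroup.centralizer (Cfsg.fittingSubgroup G : Set G) ≤ Cfsg.fittingSubgroup G :=
    Cfsg.Agent.S0044.result
  -- (2)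
  have h2 : ∀ r : ℕ, r.Prime → ∀ p : ℕ, p.Prime → p ≠ r → ∀ x ∈ commutator G, ∀ j : ℕ,
      x ^ r ^ j = 1 → x ∈ Subgroup.centralizer (Cfsg.pCore p G : Set G) := by
    intro r hr p hp hpr x hx j hxj
    obtain ⟨k, hk⟩ := h1 p hp x hx
    apply mem_of_pow_mem_of_coprime _ x _ hk
    have h3 : orderOf x ∣ r ^ j := orderOf_dvd_of_pow_eq_one hxj
    exact Nat.Coprime.of_dvd_right h3 (Nat.Coprime.pow _ _ ((Nat.coprime_primes hp hr).2 hpr))
  -- (3)
  have h3 : ∀ p : ℕ, p.Prime → ∀ x ∈ commutator G, ∀ j : ℕ, x ^ p ^ j = 1 →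
      x ∈ Cfsg.fittingSubgroup G := by
    intro p hp x hx j hxj
    haveI : Fact p.Prime := ⟨hp⟩
    set M : Subgroup G := commutator G ⊓
      ⨅ q : {q : Nat.Primes // (q : ℕ) ≠ p}, Subgroup.centralizer (Cfsg.pCore (q : ℕ) G : Set G) with hM
    have hMchar : M.Characteristic := inferInstance
    have hMn : M.Normal := inferInstance
    have hMD : M ≤ commutator G := inf_le_left
    have hMC : ∀ q : ℕ, q.Prime → q ≠ p → M ≤ Subgroup.centralizer (Cfsg.pCore q G : Set G) := by
      intro q hq hqp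
      exact inf_le_right.trans (iInf_le
        (fun q : {q : Nat.Primes // (q : ℕ) ≠ p} =>
          Subgroup.centralizer (Cfsg.pCore (q : ℕ) G : Set G)) ⟨⟨q, hq⟩, hqp⟩)
    have hxM : x ∈ M := by
      rw [hM, Subgroup.mem_inf]
      refine ⟨hx, ?_⟩
      rw [Subgroup.mem_iInf]
      rintro ⟨q, hq⟩
      exact h2 p hp q q.2 hq x hx j hxj
    have hcentral : ∀ r : ℕ, r.Prime → r ≠ p → ∀ y ∈ M, ∀ i : ℕ, y ^ r ^ i = 1 →
        ∀ m ∈ M, Commute y m := by
      intro r hr hrp y hy i hyi m hm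
      haveI : Fact r.Prime := ⟨hr⟩
      have hyF : y ∈ Cfsg.fittingSubgroup G := by
        apply hCF
        apply mem_centralizer_fitting
        intro q
        by_cases hq : (q : ℕ) = p
        · rw [hq]
          exact h2 r hr p hp hrp.symm y (hMD hy) i hyi
        · exact hMC q q.2 hq hy
      have hyr := mem_pCore_of_mem_fitting r y hyF i hyi
      exact (Subgroup.mem_centralizer_iff.1 (hMC r hr hrp hm)) y hyr
    have hMnil : Group.IsNilpotent M := by
      apply Group.of_quotient_center_nilpotent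
      have hcard : Nat.card (↥M ⧸ Subgroup.center ↥M) =
          p ^ (Nat.card (↥M ⧸ Subgroup.center ↥M)).primeFactorsList.length := by
        apply Nat.eq_prime_pow_of_unique_prime_dvd Nat.card_pos.ne'
        intro r hr hrd
        by_contra hrp
        haveI : Fact r.Prime := ⟨hr⟩
        let S : Sylow r ↥M := default
        have hS : (S : Subgroup ↥M) ≤ Subgroup.center ↥M := by
          intro y hy
          rw [Subgroup.mem_center_iff]
          intro m
          obtain ⟨i, hi⟩ := S.2 ⟨y, hy⟩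
          have hi' : (y : G) ^ r ^ i = 1 := by
            have := congrArg (fun z : (S : Subgroup ↥M) => ((z : ↥M) : G)) hi
            simpa using this
          apply Subtype.ext
          exact (hcentral r hr hrp y y.2 i hi' m m.2).symm
        rw [← Subgroup.index_eq_card] at hrd
        exact S.not_dvd_index (hrd.trans (Subgroup.index_dvd_of_le hS))
      exact (IsPGroup.of_card hcard).isNilpotent
    exact Cfsg.Agent.Lib.Helper1.le_fittingSubgroup hMn hMnil hxM
  -- (4)
  intro x hx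
  apply Cfsg.Agent.Lib.Helper71.mem_of_forall_sylow_pow_index_mem
  intro p _ P
  obtain ⟨k, hk⟩ := IsPGroup.iff_card.1 P.2
  apply h3 p Fact.out _ (Subgroup.pow_mem _ hx _) k
  rw [← pow_mul, ← hk, mul_comm, Subgroup.card_mul_index]
  exact pow_card_eq_one'

end Cfsg.Agent.Lib.Helper24
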