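/-
Helper library (helper24): a `p`-group `R` of rank at most 2 (`p` odd) with `R = [R, a]` nonabelian, where `a` has
order prime to `p (p - 1)`, has order `p ^ 3`.
-/
import Cfsg.Agent.Lib.Helper24.FpfCentral
import Cfsg.Agent.Lib.Helper24.NarrowData

set_option autoImplicit false
set_option linter.unusedSimpArgs false
set_option linter.unusedVariables false
set_option linter.style.haveILetI false

namespace Cfsg.Agent.Lib.Helper24

open scoped commutatorElement

universe u

variable {G : Type u} [Group G]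

theorem mem_normalizer_bot (g : G) : g ∈ Subgroup.normalizer (((⊥ : Subgroup G)) : Set G) := by
  have h0 : Subgroup.normalizer (((⊥ : Subgroup G)) : Set G) = ⊤ := Subgroup.normalizer_eq_top _
  rw [h0]; trivial

/-- An invariant subgroup of order `p` is centralized by an element of order prime to `p - 1`. -/
theorem le_centralizer_of_card_prime (p : ℕ) [Fact p.Prime] (k : ℕ) (hk : k.Coprime (p - 1))
    (a : G) (hak : a ^ k = 1) (Y : Subgroup G) (haY : a ∈ Subgroup.normalizer (Y : Set G))
    (hY : Nat.card Y = p) : Y ≤ Subgroup.centralizer ((Subgroup.zpowers a : Subgroup G) : Set G) := by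
  have h := mem_sectionCent_of_coprime p k hk Y ⊥ a hak bot_le (fun x _ => mem_normalizer_bot x) haY
    (mem_normalizer_bot a) (by rw [Subgroup.relIndex_bot_left]; exact hY)
  intro y hy
  rw [Subgroup.mem_centralizer_iff]
  intro b hb
  have h1 := ((Subgroup.zpowers_le.2 h) hb).2 y hy
  exact commutatorElement_eq_one_iff_mul_comm.1 (Subgroup.mem_bot.1 h1)

/-- An invariant `p`-subgroup of order `p ^ 2` with an invariant subgroup of order `p` is centralized by an
element of order prime to `p (p - 1)`. -/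
theorem le_centralizer_of_chain [Finite G] (p : ℕ) [Fact p.Prime] (k : ℕ) (hk : k.Coprime (p - 1))
    (hkp : k.Coprime p) (a : G) (hak : a ^ k = 1) (X Y : Subgroup G) (hX : IsPGroup p X) (hYX : Y ≤ X)
    (hXY : X ≤ Subgroup.normalizer (Y : Set G)) (haX : a ∈ Subgroup.normalizer (X : Set G))
    (haY : a ∈ Subgroup.normalizer (Y : Set G)) (hY : Nat.card Y = p) (hidx : Y.relIndex X = p) :
    X ≤ Subgroup.centralizer ((Subgroup.zpowers a : Subgroup G) : Set G) := by
  set A := Subgroup.zpowers a with hA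
  have hcop : (Nat.card A).Coprime p := by
    rw [hA, Nat.card_zpowers]
    exact Nat.Coprime.coprime_dvd_left (orderOf_dvd_of_pow_eq_one hak) hkp
  have h1 := le_centralizer_of_card_prime p k hk a hak Y haY hY
  have h2 := mem_sectionCent_of_coprime p k hk X Y a hak hYX hXY haX haY hidx
  have h3 : ⁅X, A⁆ ≤ Y := by
    rw [Subgroup.commutator_le]
    intro x hx b hb
    rw [← commutatorElement_inv]
    exact Y.inv_mem (((Subgroup.zpowers_le.2 h2) hb).2 x hx)
  have h4 : ⁅⁅X, A⁆, A⁆ = ⊥ := by
    rw [Subgroup.commutator_eq_bot_iff_le_centralizer]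
    exact h3.trans h1
  have hAX : A ≤ Subgroup.normalizer (X : Set G) := by rw [hA, Subgroup.zpowers_le]; exact haX
  exact Subgroup.commutator_eq_bot_iff_le_centralizer.1
    (commutator_eq_bot_of_coprime hAX (coprime_card_of_isPGroup hcop hX) h4)

theorem exists_pow_not_mem (p : ℕ) (Z : Subgroup G) (f : G) (hf : f ∉ Z) (hex : ∃ i, f ^ p ^ i ∈ Z) :
    ∃ j, f ^ p ^ j ∉ Z ∧ (f ^ p ^ j) ^ p ∈ Z := by
  classical
  have hi0 := Nat.find_spec hex
  have hi0pos : Nat.find hex ≠ 0 := by
    intro h0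
    rw [h0, pow_zero, pow_one] at hi0
    exact hf hi0
  obtain ⟨j, hj⟩ := Nat.exists_eq_succ_of_ne_zero hi0pos
  refine ⟨j, Nat.find_min hex (by omega), ?_⟩
  rw [← pow_mul, ← pow_succ]
  rw [hj] at hi0; exact hi0

/-- **Theorem.** -/
theorem rank2_coprime_cube [Finite G] (p : ℕ) [Fact p.Prime] (hp2 : p ≠ 2) (R : Subgroup G)
    (hR : IsPGroup p R)
    (hrank : ∀ F : Subgroup G, F ≤ R → IsMulCommutative F → (∀ a ∈ F, a ^ p = 1) → Nat.card F ≤ p ^ 2)
    (a : G) (ha : a ∈ Subgroup.normalizer (R : Set G)) (k : ℕ) (hk : k.Coprime (p - 1))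
    (hkp : k.Coprime p) (hak : a ^ k = 1) (hRa : ⁅R, Subgroup.zpowers a⁆ = R)
    (hnab : ¬ R ≤ Subgroup.centralizer (R : Set G)) : Nat.card R = p ^ 3 := by
  classical
  have hp : p.Prime := Fact.out
  set A := Subgroup.zpowers a with hAdef
  have haA : a ∈ A := Subgroup.mem_zpowers a
  have hA : A ≤ Subgroup.normalizer (R : Set G) := by rw [hAdef, Subgroup.zpowers_le]; exact ha
  have hcop : (Nat.card A).Coprime p := by
    rw [hAdef, Nat.card_zpowers]
    exact Nat.Coprime.coprime_dvd_left (orderOf_dvd_of_pow_eq_one hak) hkp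
  have hncent : ¬ R ≤ Subgroup.centralizer (A : Set G) := by
    intro h
    have h1 := Subgroup.commutator_eq_bot_iff_le_centralizer.2 h
    rw [hRa] at h1
    apply hnab
    rw [h1]; exact bot_le
  set Z1 := omegaCenterOf p R with hZ1
  have hZ1R : Z1 ≤ R := fun x hx => hx.1
  have hZ1c : Z1 ≤ Subgroup.centralizer (R : Set G) := fun x hx => hx.2.1
  have hZ1p : ∀ x ∈ Z1, x ^ p = 1 := fun x hx => hx.2.2
  have hNZ1 := normalizer_le_normalizer_omegaCenterOf p R
  rw [← hZ1] at hNZ1
  have hRZ1 : R ≤ Subgroup.normalizer (Z1 : Set G) := Subgroup.le_normalizer.trans hNZ1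
  have hRcZ1 : R ≤ Subgroup.centralizer (Z1 : Set G) := Subgroup.le_centralizer_iff.1 hZ1c
  have hZ1comm : IsMulCommutative Z1 := by
    refine ⟨⟨?_⟩⟩
    rintro ⟨a, ha⟩ ⟨b, hb⟩
    apply Subtype.ext
    exact ((Subgroup.mem_centralizer_iff.1 (hZ1c hb)) a (hZ1R ha))
  set Ω := omegaCentralMod p hp2 Z1 R hRZ1 with hΩ
  have hΩR : Ω ≤ R := fun c hc => hc.1
  have hΩp : ∀ c ∈ Ω, c ^ p = 1 := fun c hc => hc.2.2.2
  have hΩc : ∀ c ∈ Ω, ∀ m ∈ R, ⁅c, m⁆ ∈ Z1 := fun c hc => hc.2.2.1
  have hZ1Ω : Z1 ≤ Ω := by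
    intro z hz
    refine ⟨hZ1R hz, hRcZ1 (hZ1R hz), fun m hm => ?_, hZ1p z hz⟩
    have : Commute z m := ((Subgroup.mem_centralizer_iff.1 (hZ1c hz)) m hm).symm
    rw [this.commutator_eq]; exact Z1.one_mem
  have hNΩ : Subgroup.normalizer (R : Set G) ≤ Subgroup.normalizer (Ω : Set G) :=
    le_trans (le_inf le_rfl hNZ1) (normalizer_le_normalizer_omegaCentralMod p hp2 Z1 R hRZ1)
  have hgoodE : ∀ E : Subgroup G, E ≤ R → R ≤ Subgroup.normalizer (E : Set G) → IsMulCommutative E →
      (∀ a ∈ E, a ^ p = 1) → Nat.card E = p ^ 2 →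
      ∀ x ∈ R, x ∈ Subgroup.centralizer (E : Set G) → x ^ p = 1 → x ∈ E := by
    intro E hER hRE hEc hEp hEcard x hxR hxc hxp
    by_contra hxE
    obtain ⟨f, hfR, hfc, hfE, hfp, hf⟩ :=
      exists_central_mod_of_order_p p hp2 E R hR hER hRE x hxR hxc hxE hxp
    have h1 := hrank (adjoin E f hfc) (adjoin_le hfc hER hfR) (adjoin_comm hfc hEc)
      (adjoin_pow hfc p hEp hfp)
    have h2 : E < adjoin E f hfc :=
      lt_of_le_of_ne (le_adjoin E f hfc) (fun h => hfE (h ▸ self_mem_adjoin E f hfc))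
    have h3 := card_lt_of_lt h2
    omega
  obtain ⟨k1, hk1⟩ := IsPGroup.iff_card.1 (hR.to_le hZ1R)
  have hk1le : k1 ≤ 2 := card_eq_pow_le_two hp k1 hk1 (hrank Z1 hZ1R hZ1comm hZ1p)
  by_cases hcase : Ω ≤ Z1
  · -- Case A: all elements of order `p` lie in `Z1`
    exfalso
    have hall : ∀ x ∈ R, x ∈ Subgroup.centralizer (Z1 : Set G) → x ^ p = 1 → x ∈ Z1 := by
      intro x hxR hxc hxp
      by_contra hxZ
      obtain ⟨f, hfR, hfc, hfE, hfp, hf⟩ :=
        exists_central_mod_of_order_p p hp2 Z1 R hR hZ1R hRZ1 x hxR hxc hxZ hxp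
      exact hfE (hcase ⟨hfR, hfc, hf, hfp⟩)
    have hall' : ∀ x ∈ R, x ^ p = 1 → x ∈ Z1 := fun x hx hxp => hall x hx (hRcZ1 hx) hxp
    -- it suffices to show that `A` centralizes `Z1`
    have hred : ¬ Z1 ≤ Subgroup.centralizer (A : Set G) := fun h =>
      hncent (le_centralizer_of_centralizes_good p hp2 R Z1 A hR hZ1R hA hcop hall
        (Subgroup.le_centralizer_iff.1 h))
    interval_cases k1
    · apply hred
      rw [pow_zero] at hk1
      rw [Subgroup.card_eq_one.1 hk1]; exact bot_le
    · rw [pow_one] at hk1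
      exact hred (le_centralizer_of_card_prime p k hk a hak Z1 (hNZ1 ha) hk1)
    · set C := Z1 ⊓ Subgroup.centralizer (A : Set G) with hC
      have hCZ1 : C ≤ Z1 := inf_le_left
      have haC : a ∈ Subgroup.normalizer (C : Set G) :=
        Subgroup.inf_normalizer_le_normalizer_inf
          ⟨hNZ1 ha, normalizer_le_normalizer_centralizer A (Subgroup.le_normalizer haA)⟩
      have hZ1C : Z1 ≤ Subgroup.normalizer (C : Set G) := by
        rw [Subgroup.le_normalizer_iff]
        intro g hg m hm
        have h1 : Commute g m := (Subgroup.mem_centralizer_iff.1 (hZ1c (hCZ1 hm))) g (hZ1R hg)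
        rw [h1.eq, mul_assoc, mul_inv_cancel, mul_one]; exact hm
      have hdvd : Nat.card C ∣ p ^ 2 := hk1 ▸ Subgroup.card_dvd_of_le hCZ1
      obtain ⟨t, ht2, ht⟩ := (Nat.dvd_prime_pow hp).1 hdvd
      interval_cases t
      · -- fixed-point-free
        rw [pow_zero] at ht
        have hCbot : C = ⊥ := Subgroup.card_eq_one.1 ht
        have hfpf : ∀ r ∈ R, a * r = r * a → r = 1 := by
          intro r hr hc
          by_contra hr1
          obtain ⟨m, hm⟩ := hR ⟨r, hr⟩
          have hm' : r ^ p ^ m = 1 := congrArg Subtype.val hm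
          obtain ⟨j, hj1, hj2⟩ := exists_pow_not_mem p ⊥ r (by rwa [Subgroup.mem_bot])
            ⟨m, by rw [hm']; exact Subgroup.one_mem _⟩
          apply hj1
          rw [← hCbot]
          refine Subgroup.mem_inf.2 ⟨hall' _ (R.pow_mem hr _) (Subgroup.mem_bot.1 hj2), ?_⟩
          rw [Subgroup.mem_centralizer_iff]
          intro b hb
          obtain ⟨i, rfl⟩ := Subgroup.mem_zpowers_iff.1 hb
          have h1 : Commute a r := hc
          exact ((h1.zpow_left i).pow_right _).eq
        apply hnab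
        apply fpf_central_abelian p hp2 k hk R a ha hR hak hfpf (fun x hx hxp => hZ1c (hall' x hx hxp))
        intro F hF hFp
        rw [← hk1]
        exact Subgroup.card_le_of_le (fun x hx => hall' x (hF hx) (hFp x hx))
      · rw [pow_one] at ht
        apply hred
        apply le_centralizer_of_chain p k hk hkp a hak Z1 C (hR.to_le hZ1R) hCZ1 hZ1C (hNZ1 ha) haC ht
        have h1 := relIndex_mul_card' hCZ1
        rw [ht, hk1, sq] at h1
        exact Nat.eq_of_mul_eq_mul_right hp.pos h1
      · apply hred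
        have h1 : C = Z1 := Subgroup.eq_of_le_of_card_ge hCZ1 (by rw [ht, hk1])
        rw [← h1]; exact inf_le_right
  · -- Case B
    obtain ⟨c, hcΩ, hcZ⟩ := SetLike.not_le_iff_exists.1 hcase
    have hcc : c ∈ Subgroup.centralizer (Z1 : Set G) := hcΩ.2.1
    set E := adjoin Z1 c hcc with hE
    have hEΩ : E ≤ Ω := adjoin_le hcc hZ1Ω hcΩ
    have hER : E ≤ R := hEΩ.trans hΩR
    have hEc : IsMulCommutative E := adjoin_comm hcc hZ1comm
    have hEp : ∀ a ∈ E, a ^ p = 1 := adjoin_pow hcc p hZ1p (hΩp c hcΩ)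
    have hRE : R ≤ Subgroup.normalizer (E : Set G) := le_normalizer_adjoin hcc hRZ1 (hΩc c hcΩ)
    have hcE : c ∈ E := self_mem_adjoin Z1 c hcc
    have hZ1leE : Z1 ≤ E := le_adjoin Z1 c hcc
    have hZ1E : Z1 < E :=
      lt_of_le_of_ne hZ1leE (fun h => hcZ (h ▸ self_mem_adjoin Z1 c hcc))
    have hZ1bot : Z1 ≠ ⊥ := by
      intro hbot
      apply hcZ
      refine ⟨hΩR hcΩ, ?_, hΩp c hcΩ⟩
      rw [Subgroup.mem_centralizer_iff]
      intro m hm
      have h1 := hΩc c hcΩ m hm
      rw [hbot, Subgroup.mem_bot] at h1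
      exact (commutatorElement_eq_one_iff_mul_comm.1 h1).symm
    obtain ⟨k2, hk2⟩ := IsPGroup.iff_card.1 (hR.to_le hER)
    have hk2le : k2 ≤ 2 := card_eq_pow_le_two hp k2 hk2 (hrank E hER hEc hEp)
    have hk12 : k1 < k2 := by
      have := card_lt_of_lt hZ1E
      rw [hk1, hk2] at this
      exact (Nat.pow_lt_pow_iff_right hp.one_lt).1 this
    have hk10 : k1 ≠ 0 := by
      rintro rfl
      rw [pow_zero] at hk1
      exact hZ1bot (Subgroup.card_eq_one.1 hk1)
    have hk1' : k1 = 1 := by omega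
    have hk2' : k2 = 2 := by omega
    subst hk1' hk2'
    rw [pow_one] at hk1
    have hgood := hgoodE E hER hRE hEc hEp hk2
    have hZ1cΩ : Z1 ≤ Subgroup.centralizer (Ω : Set G) :=
      hZ1c.trans (Subgroup.centralizer_le hΩR)
    have hCΩ : Ω ⊓ Subgroup.centralizer ({c} : Set G) = E := by
      apply le_antisymm
      · intro w hw
        apply hgood w (hΩR hw.1) _ (hΩp w hw.1)
        exact mem_centralizer_adjoin hcc hw.1.2.1 ((Subgroup.mem_centralizer_iff.1 hw.2) c rfl)
      · refine le_inf hEΩ ?_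
        intro e he
        rw [Subgroup.mem_centralizer_iff]
        rintro _ rfl
        exact congrArg Subtype.val (hEc.is_comm.comm ⟨_, self_mem_adjoin Z1 _ hcc⟩ ⟨e, he⟩)
    have hdvd := relIndex_centralizer_dvd c Ω Z1 (fun g hg => hΩc c hcΩ g (hΩR hg)) hZ1cΩ
    rw [hCΩ, hk1] at hdvd
    have hcardΩ := relIndex_mul_card' hEΩ
    rw [hk2] at hcardΩ
    have hfaithE : ¬ E ≤ Subgroup.centralizer (A : Set G) := fun h =>
      hncent (le_centralizer_of_centralizes_good p hp2 R E A hR hER hA hcop hgood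
        (Subgroup.le_centralizer_iff.1 h))
    have hZ1A : Z1 ≤ Subgroup.centralizer (A : Set G) :=
      le_centralizer_of_card_prime p k hk a hak Z1 (hNZ1 ha) hk1
    rcases (Nat.dvd_prime hp).1 hdvd with h1 | h1
    · -- `Ω = E`
      exfalso
      have hΩE : Ω = E := le_antisymm (Subgroup.relIndex_eq_one.1 h1) hEΩ
      apply hfaithE
      rw [← hΩE]
      apply le_centralizer_of_chain p k hk hkp a hak Ω Z1 (hR.to_le hΩR) hZ1Ω (hΩR.trans hRZ1)
        (hNΩ ha) (hNZ1 ha) hk1
      have h2 := relIndex_mul_card' hZ1Ω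
      have hΩcard : Nat.card Ω = p ^ 2 := by rw [hΩE]; exact hk2
      rw [hk1, hΩcard, sq] at h2
      exact Nat.eq_of_mul_eq_mul_right hp.pos h2
    · -- `|Ω| = p ^ 3`
      rw [h1] at hcardΩ
      have hEltΩ : E < Ω := lt_of_le_of_ne hEΩ (fun h => by
        rw [h, Subgroup.relIndex_self] at h1
        exact hp.one_lt.ne h1)
      obtain ⟨d, hdΩ, hdE⟩ := SetLike.exists_of_lt hEltΩ
      have hcd : ¬ Commute c d := by
        intro h
        apply hdE
        rw [← hCΩ]
        refine Subgroup.mem_inf.2 ⟨hdΩ, ?_⟩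
        rw [Subgroup.mem_centralizer_iff]
        rintro _ rfl
        exact h.eq
      set D := R ⊓ Subgroup.centralizer (Ω : Set G) with hD
      have hDR : D ≤ R := inf_le_left
      -- `E ∩ C(Ω) = Z1`
      set T := E ⊓ Subgroup.centralizer (Ω : Set G) with hT
      have hZ1T : Z1 ≤ T := le_inf hZ1leE hZ1cΩ
      have hTE : T < E := by
        refine lt_of_le_of_ne inf_le_left ?_
        intro h
        have h2 : c ∈ T := by rw [h]; exact hcE
        exact hcd ((Subgroup.mem_centralizer_iff.1 h2.2) d hdΩ).symm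
      have hTZ1 : T = Z1 := by
        refine (Subgroup.eq_of_le_of_card_ge hZ1T ?_).symm
        rw [hk1]
        apply le_of_dvd_sq_of_lt hp
        · rw [← hk2]; exact Subgroup.card_dvd_of_le hTE.le
        · rw [← hk2]; exact card_lt_of_lt hTE
      have hDp : ∀ x ∈ D, x ^ p = 1 → x ∈ Z1 := by
        intro x hx hxp
        rw [← hTZ1]
        refine Subgroup.mem_inf.2 ⟨?_, hx.2⟩
        exact hgood x hx.1 (Subgroup.centralizer_le hEΩ hx.2) hxp
      have hDΩ : D ⊓ Ω = Z1 := by
        apply le_antisymm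
        · intro x hx
          exact hDp x hx.1 (hΩp x hx.2)
        · exact le_inf (le_inf hZ1R hZ1cΩ) hZ1Ω
      have hAD : A ≤ Subgroup.normalizer (D : Set G) :=
        le_trans (le_inf hA (hA.trans (hNΩ.trans (normalizer_le_normalizer_centralizer Ω))))
          Subgroup.inf_normalizer_le_normalizer_inf
      have hDA : D ≤ Subgroup.centralizer (A : Set G) :=
        le_centralizer_of_centralizes_omega p hp2 A hcop D (hR.to_le hDR) hAD
          (fun x hx hxp => hZ1A (hDp x hx hxp))
      -- `|R| ≤ p ^ 2 |D|`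
      set H1 := R ⊓ Subgroup.centralizer ({c} : Set G) with hH1
      set H2 := H1 ⊓ Subgroup.centralizer ({d} : Set G) with hH2
      have d1 := relIndex_centralizer_dvd c R Z1 (hΩc c hcΩ) hZ1c
      have d2 := relIndex_centralizer_dvd d H1 Z1 (fun g hg => hΩc d hdΩ g hg.1)
        (hZ1c.trans (Subgroup.centralizer_le inf_le_left))
      rw [← hH1, hk1] at d1
      rw [← hH2, hk1] at d2
      have hH2D : H2 ≤ D := by
        intro x hx
        have hxR : x ∈ R := hx.1.1
        have hxc : Commute c x := (Subgroup.mem_centralizer_iff.1 hx.1.2) c rfl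
        have hxd : Commute d x := (Subgroup.mem_centralizer_iff.1 hx.2) d rfl
        have hxE : x ∈ Subgroup.centralizer (E : Set G) := mem_centralizer_adjoin hcc (hRcZ1 hxR) hxc
        set Y := Ω ⊓ Subgroup.centralizer ({x} : Set G) with hY
        have hEY : E ≤ Y := by
          refine le_inf hEΩ ?_
          intro e he
          rw [Subgroup.mem_centralizer_iff]
          rintro _ rfl
          exact ((Subgroup.mem_centralizer_iff.1 hxE) e he).symm
        have hdY : d ∈ Y := by
          refine Subgroup.mem_inf.2 ⟨hdΩ, ?_⟩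
          rw [Subgroup.mem_centralizer_iff]
          rintro _ rfl
          exact hxd.symm.eq
        have h2 := Subgroup.relIndex_mul_relIndex E Y Ω hEY inf_le_left
        rw [h1] at h2
        have h3 : Y.relIndex Ω = 1 := by
          rcases (Nat.dvd_prime hp).1 ⟨_, h2.symm⟩ with h4 | h4
          · exact absurd ((Subgroup.relIndex_eq_one.1 h4) hdY) hdE
          · rw [h4] at h2
            exact Nat.eq_of_mul_eq_mul_left hp.pos (by rw [h2, mul_one])
        have h5 : Ω ≤ Y := Subgroup.relIndex_eq_one.1 h3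
        refine Subgroup.mem_inf.2 ⟨hxR, ?_⟩
        rw [Subgroup.mem_centralizer_iff]
        intro w hw
        exact ((Subgroup.mem_centralizer_iff.1 (h5 hw).2) x rfl).symm
      have hcardR : Nat.card R ≤ p ^ 2 * Nat.card D := by
        have e1 := relIndex_mul_card' (inf_le_left : H1 ≤ R)
        have e2 := relIndex_mul_card' (inf_le_left : H2 ≤ H1)
        have l1 := Nat.le_of_dvd hp.pos d1
        have l2 := Nat.le_of_dvd hp.pos d2
        calc Nat.card R = H1.relIndex R * (H2.relIndex H1 * Nat.card H2) := by rw [e2, e1]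
          _ ≤ p * (p * Nat.card D) :=
            Nat.mul_le_mul l1 (Nat.mul_le_mul l2 (Subgroup.card_le_of_le hH2D))
          _ = p ^ 2 * Nat.card D := by ring
      -- `R = Ω D`
      set S := Ω ⊔ D with hS
      have hSR : S ≤ R := sup_le hΩR hDR
      have hcardS : p ^ 2 * Nat.card D ≤ Nat.card S := by
        have e3 := relIndex_mul_card' (le_sup_right : D ≤ S)
        rw [← e3]
        apply Nat.mul_le_mul_right
        have e4 : D.relIndex Ω = p ^ 2 := by
          rw [← Subgroup.inf_relIndex_right, hDΩ]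
          have h2 := relIndex_mul_card' hZ1Ω
          rw [hk1, ← hcardΩ] at h2
          have h3 : Z1.relIndex Ω * p = p ^ 2 * p := by rw [h2]; ring
          exact Nat.eq_of_mul_eq_mul_right hp.pos h3
        rw [← e4]
        apply Subgroup.relIndex_le_of_le_right le_sup_left
        intro h0
        have e5 := relIndex_mul_card' (le_sup_right : D ≤ S)
        rw [h0, zero_mul] at e5
        exact (Nat.card_pos (α := S)).ne e5
      have hSeq : S = R := Subgroup.eq_of_le_of_card_ge hSR (hcardR.trans hcardS)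
      have hSsec : S ≤ sectionCent A Ω := by
        refine sup_le ?_ ?_
        · intro x hx
          refine ⟨Subgroup.le_normalizer hx, fun b hb => ?_⟩
          have h2 : ⁅x, b⁆ = x * (b * x⁻¹ * b⁻¹) := by rw [commutatorElement_def]; group
          rw [h2]
          exact Ω.mul_mem hx ((Subgroup.mem_normalizer_iff.1 (hNΩ (hA hb)) _).1 (Ω.inv_mem hx))
        · intro x hx
          refine ⟨hNΩ (Subgroup.le_normalizer (hDR hx)), fun b hb => ?_⟩
          have h2 : Commute x b := ((Subgroup.mem_centralizer_iff.1 (hDA hx)) b hb).symm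
          rw [h2.commutator_eq]; exact Ω.one_mem
      have hRΩ : R ≤ Ω := by
        rw [← hRa, Subgroup.commutator_le]
        intro r hr b hb
        rw [← hSeq] at hr
        exact (hSsec hr).2 b hb
      have hfin : Ω = R := le_antisymm hΩR hRΩ
      rw [← hfin, ← hcardΩ]; ring

end Cfsg.Agent.Lib.Helper24
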