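/-
Helper library (helper24): solvable groups with narrow Sylow p-subgroups.
-/
import Cfsg.Agent.Lib.Helper24.NarrowData
import Cfsg.Agent.Lib.Helper63.PLength2

set_option autoImplicit false
set_option linter.unusedSimpArgs false
set_option linter.unusedVariables false
set_option linter.style.haveILetI false

namespace Cfsg.Agent.Lib.Helper24

open scoped commutatorElement Pointwise

/-- In the situation of the definition of a narrow group, elementary abelian subgroups containing `R₀` have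
order at most `p ^ 2`. -/
theorem isNarrow_bound {P : Type*} [Group P] [Finite P] (p : ℕ) [Fact p.Prime]
    (R₀ R₁ : Subgroup P) (hR₀ : Nat.card R₀ = p) (hR₁ : IsCyclic R₁)
    (hcomm : ∀ a ∈ R₀, ∀ b ∈ R₁, a * b = b * a)
    (hsup : R₀ ⊔ R₁ = Subgroup.centralizer (R₀ : Set P)) :
    Cfsg.IsElementaryAbelian p R₀ ∧
      ∀ B : Subgroup P, Cfsg.IsElementaryAbelian p B → R₀ ≤ B → Nat.card B ≤ p ^ 2 := by
  have hp : p.Prime := Fact.out
  haveI hcyc : IsCyclic R₀ := isCyclic_of_prime_card hR₀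
  refine ⟨⟨IsCyclic.isMulCommutative, fun a ha => ?_⟩, ?_⟩
  · have h1 : (⟨a, ha⟩ : R₀) ^ Nat.card R₀ = 1 := pow_card_eq_one'
    rw [hR₀] at h1
    exact congrArg Subtype.val h1
  intro B hB hle
  obtain ⟨x₀, hx₀⟩ := IsCyclic.exists_generator (α := R₀)
  have hx₀c : (x₀ : P) ∈ Subgroup.centralizer (R₁ : Set P) := by
    rw [Subgroup.mem_centralizer_iff]
    intro b hb
    exact (hcomm x₀ x₀.2 b hb).symm
  have hR₀le : R₀ ≤ adjoin R₁ (x₀ : P) hx₀c := by
    intro a ha
    obtain ⟨i, hi⟩ := Subgroup.mem_zpowers_iff.1 (hx₀ ⟨a, ha⟩)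
    refine ⟨1, R₁.one_mem, i, ?_⟩
    have := congrArg Subtype.val hi
    simp only [Subgroup.coe_zpow] at this
    rw [one_mul, this]
  have hBC : B ≤ adjoin R₁ (x₀ : P) hx₀c := by
    refine le_trans ?_ (sup_le hR₀le (le_adjoin R₁ _ hx₀c))
    rw [hsup]
    intro b hb
    rw [Subgroup.mem_centralizer_iff]
    intro a ha
    exact congrArg Subtype.val (hB.1.is_comm.comm ⟨a, hle ha⟩ ⟨b, hb⟩)
  have hsub : (B : Set P) ⊆ ((B ⊓ R₁ : Subgroup P) : Set P) * (R₀ : Set P) := by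
    intro b hb
    obtain ⟨e, he, i, rfl⟩ := hBC hb
    refine Set.mem_mul.2 ⟨e, ⟨?_, he⟩, (x₀ : P) ^ i, R₀.zpow_mem x₀.2 i, rfl⟩
    have h1 : (x₀ : P) ^ i ∈ B := B.zpow_mem (hle x₀.2) i
    have h2 : e = e * (x₀ : P) ^ i * ((x₀ : P) ^ i)⁻¹ := by group
    rw [h2]
    exact B.mul_mem hb (B.inv_mem h1)
  have hc1 : Nat.card (B ⊓ R₁ : Subgroup P) ≤ p := by
    haveI : IsCyclic (B ⊓ R₁ : Subgroup P) := Subgroup.isCyclic_of_le (inf_le_right : B ⊓ R₁ ≤ R₁)
    obtain ⟨g, hg⟩ := IsCyclic.exists_generator (α := (B ⊓ R₁ : Subgroup P))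
    have h1 : orderOf g = Nat.card (B ⊓ R₁ : Subgroup P) := orderOf_eq_card_of_forall_mem_zpowers hg
    have h2 : g ^ p = 1 := Subtype.ext (hB.2 g g.2.1)
    rw [← h1]
    exact Nat.le_of_dvd hp.pos (orderOf_dvd_of_pow_eq_one h2)
  calc Nat.card B ≤ Nat.card ↑(((B ⊓ R₁ : Subgroup P) : Set P) * (R₀ : Set P)) :=
        Nat.card_mono (Set.toFinite _) hsub
    _ ≤ Nat.card (B ⊓ R₁ : Subgroup P) * Nat.card R₀ := Set.natCard_mul_le
    _ ≤ p * p := by rw [hR₀]; exact Nat.mul_le_mul_right p hc1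
    _ = p ^ 2 := (sq p).symm

/-- Narrow data for a narrow `p`-group of rank at least 3. -/
theorem exists_narrow_data_of_isNarrow {P : Type*} [Group P] [Finite P] (p : ℕ) [Fact p.Prime]
    (hp2 : p ≠ 2) (hP : IsPGroup p P) (hn : Cfsg.IsNarrow p P) (hr : ¬ Cfsg.PRankLE p 2 P) :
    ∃ (T : Subgroup P) (x : P), T.Characteristic ∧ T.index = p ∧
      ∀ F : Subgroup P, F ≤ T → (∀ f ∈ F, f ^ p = 1) → (∀ f ∈ F, Commute x f) → Nat.card F ≤ p := by
  rcases hn with h | ⟨R₀, R₁, h0, h1, _, h3, h4⟩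
  · exact absurd h hr
  · obtain ⟨hE, hb⟩ := isNarrow_bound p R₀ R₁ h0 h1 h3 h4
    exact exists_narrow_data_of_bound p hp2 hP hr R₀ hE hb

/-- Transport of narrow data along an isomorphism. -/
theorem narrow_data_of_mulEquiv {P Q : Type*} [Group P] [Group Q] (e : P ≃* Q) (p : ℕ)
    (h : ∃ (T : Subgroup P) (x : P), T.Characteristic ∧ T.index = p ∧
      ∀ F : Subgroup P, F ≤ T → (∀ f ∈ F, f ^ p = 1) → (∀ f ∈ F, Commute x f) → Nat.card F ≤ p) :
    ∃ (T : Subgroup Q) (x : Q), T.Characteristic ∧ T.index = p ∧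
      ∀ F : Subgroup Q, F ≤ T → (∀ f ∈ F, f ^ p = 1) → (∀ f ∈ F, Commute x f) → Nat.card F ≤ p := by
  obtain ⟨T, x, hTc, hTi, hF⟩ := h
  refine ⟨T.map (e : P →* Q), e x, ?_, ?_, ?_⟩
  · rw [Subgroup.characteristic_iff_map_le]
    rintro φ _ ⟨_, ⟨t, ht, rfl⟩, rfl⟩
    have h1 := (Subgroup.characteristic_iff_map_le.1 hTc ((e.trans φ).trans e.symm)) ⟨t, ht, rfl⟩
    refine ⟨_, h1, ?_⟩
    simp
  · rw [Subgroup.index_map_equiv, hTi]
  · intro F hFT hFp hFx
    have h1 := hF (F.map (e.symm : Q →* P))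
      (by
        rintro _ ⟨f, hf, rfl⟩
        obtain ⟨t, ht, rfl⟩ := hFT hf
        simpa using ht)
      (by
        rintro _ ⟨f, hf, rfl⟩
        have := hFp f hf
        rw [← map_pow, this, map_one])
      (by
        rintro _ ⟨f, hf, rfl⟩
        have h2 := (hFx f hf).map (e.symm : Q →* P)
        simpa using h2)
    rwa [Subgroup.card_map_of_injective (f := (e.symm : Q →* P)) e.symm.injective] at h1

/-- Solvable groups with `O_{p'} = 1` whose `O_p` carries narrow data. -/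
theorem narrow_solvable_core {H : Type*} [Group H] [Finite H] [Group.IsSolvable H] (p : ℕ)
    [Fact p.Prime] (hp2 : p ≠ 2) (hcore : Cfsg.pPrimeCore p H = ⊥)
    (hdata : ∃ (T : Subgroup (Cfsg.pCore p H)) (x : Cfsg.pCore p H), T.Characteristic ∧ T.index = p ∧
      ∀ F : Subgroup (Cfsg.pCore p H), F ≤ T → (∀ f ∈ F, f ^ p = 1) → (∀ f ∈ F, Commute x f) →
        Nat.card F ≤ p) :
    commutator H ≤ Cfsg.pCore p H ∧ (∀ q : ℕ, q.Prime → q ∣ Nat.card H → q ≤ p) ∧
      ((Cfsg.pCore p H).index).Coprime p := by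
  have hp : p.Prime := Fact.out
  set R := Cfsg.pCore p H with hRdef
  have hR : IsPGroup p R := Cfsg.Agent.Lib.Lead.pCore_isPGroup p H
  have hCR : Subgroup.centralizer (R : Set H) ≤ R := centralizer_pCore_le_of_solvable p hcore
  have hN : Subgroup.normalizer (R : Set H) = ⊤ := Subgroup.normalizer_eq_top _
  obtain ⟨_, hB⟩ := narrow_unipotent p hp2 R ⊤ hR (by rw [hN]) hdata
  have hsn : (sharp p (⊤ : Subgroup H)).Normal := by
    rw [← Subgroup.normalizer_eq_top_iff, eq_top_iff]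
    refine le_trans ?_ (normalizer_le_normalizer_sharp p ⊤)
    rw [Subgroup.normalizer_eq_top]
  have hsharp : sharp p (⊤ : Subgroup H) ≤ R := by
    apply Cfsg.Agent.Lib.Lead.le_pCore hsn
    intro l
    obtain ⟨k, hk⟩ := hB l l.2
    obtain ⟨j, hj⟩ := hR ⟨_, hCR hk⟩
    refine ⟨k + j, Subtype.ext ?_⟩
    have := congrArg Subtype.val hj
    simp only [Subgroup.coe_pow, Subgroup.coe_one] at this ⊢
    rw [pow_add, pow_mul]; exact this
  have h1 : commutator H ≤ R := (commutator_le_sharp p ⊤).trans hsharp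
  refine ⟨h1, ?_, ?_⟩
  · intro q hq hqH
    by_contra hlt
    haveI : Fact q.Prime := ⟨hq⟩
    obtain ⟨x, hx⟩ := exists_prime_orderOf_dvd_card' q hqH
    obtain ⟨j, hj⟩ := hR ⟨_, hsharp (pow_mem_sharp p ⊤ (Subgroup.mem_top x))⟩
    have h2 : (x ^ (p - 1)) ^ p ^ j = 1 := congrArg Subtype.val hj
    rw [← pow_mul] at h2
    have h3 := orderOf_dvd_of_pow_eq_one h2
    rw [hx] at h3
    have hp1 : 0 < p - 1 := by have := hp.two_le; omega
    rcases (Nat.Prime.dvd_mul hq).1 h3 with h | h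
    · have := Nat.le_of_dvd hp1 h
      omega
    · have := (Nat.prime_dvd_prime_iff_eq hq hp).1 (hq.dvd_of_dvd_pow h)
      omega
  · let P : Sylow p H := default
    have hRP : R ≤ P := Cfsg.Agent.Lib.Lead.pCore_le_sylow P
    have hPn : (P : Subgroup H).Normal := Subgroup.Normal.of_commutator_le H (h1.trans hRP)
    have hPR : (P : Subgroup H) ≤ R := Cfsg.Agent.Lib.Lead.le_pCore hPn P.2
    have hEq : R = P := le_antisymm hRP hPR
    rw [hEq]
    exact ((Nat.Prime.coprime_iff_not_dvd hp).2 P.not_dvd_index).symm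

variable {G : Type*} [Group G]

/-- The `p`-rank of a group is the `p`-rank of a Sylow `p`-subgroup. -/
theorem pRankLE_of_sylow [Finite G] (p k : ℕ) [Fact p.Prime] (S : Sylow p G)
    (hS : Cfsg.PRankLE p k ↥(S : Subgroup G)) : Cfsg.PRankLE p k G := by
  intro A hAc hAp
  have hApg : IsPGroup p A := fun a => ⟨1, by rw [pow_one]; exact Subtype.ext (hAp a a.2)⟩
  obtain ⟨Q, hQ⟩ := hApg.exists_le_sylow
  obtain ⟨g, rfl⟩ := MulAction.exists_smul_eq G S Q
  have h1 := rank_of_subtype (S : Subgroup G) hS (A.map (MulAut.conj g⁻¹).toMonoidHom)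
    (by
      rintro _ ⟨a, ha, rfl⟩
      have h2 := hQ ha
      rw [Sylow.coe_subgroup_smul, Subgroup.mem_pointwise_smul_iff_inv_smul_mem] at h2
      simpa [MulAut.smul_def] using h2)
    inferInstance
    (by
      rintro _ ⟨a, ha, rfl⟩
      rw [← map_pow, hAp a ha, map_one])
  rwa [Subgroup.card_map_of_injective (MulAut.conj g⁻¹).injective] at h1

/-- `p`-length one: the index of `O_{p',p}(G)` is prime to `p`. -/
theorem index_pPrimePCore_coprime_of_pLengthLE_one [Finite G] (p : ℕ) [Fact p.Prime]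
    (h : Cfsg.PLengthLE p 1 G) : ((Cfsg.pPrimePCore p G).index).Coprime p := by
  have hp : p.Prime := Fact.out
  have h3 : Cfsg.Agent.Lib.Helper63.ups p G 3 = ⊤ := h
  have s2 := (Cfsg.Agent.Lib.Helper63.ups_stepOK (G := G) hp 2).1 (by decide)
  have s1 := (Cfsg.Agent.Lib.Helper63.ups_stepOK (G := G) hp 1).2 (by decide)
  rw [h3, Subgroup.relIndex_top_right] at s2
  rw [Cfsg.Agent.Lib.Helper63.ups_one_eq hp] at s1
  obtain ⟨m, hm⟩ := s1
  have hle : Cfsg.Agent.Lib.Helper63.ups p G 2 ≤ Cfsg.pPrimePCore p G := by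
    unfold Cfsg.pPrimePCore
    rw [← Subgroup.map_le_iff_le_comap]
    apply Cfsg.Agent.Lib.Lead.le_pCore
      (Subgroup.Normal.map inferInstance _ (QuotientGroup.mk'_surjective _))
    apply IsPGroup.of_card (n := m)
    rw [Cfsg.Agent.Lib.Helper63.card_map_mk', hm]
  exact Nat.Coprime.of_dvd_left (Subgroup.index_dvd_of_le hle) s2

/-- The six conclusions of BG 4.18 / 5.6 from the structure of `G / O_{p'}(G)`. -/
theorem pstructure_of_core [Finite G] (hodd : Odd (Nat.card G)) (p : ℕ) [Fact p.Prime]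
    (h1 : commutator (G ⧸ Cfsg.pPrimeCore p G) ≤ Cfsg.pCore p (G ⧸ Cfsg.pPrimeCore p G))
    (h2 : ∀ q : ℕ, q.Prime → q ∣ Nat.card (G ⧸ Cfsg.pPrimeCore p G) → q ≤ p)
    (h3 : ((Cfsg.pCore p (G ⧸ Cfsg.pPrimeCore p G)).index).Coprime p) :
    (∀ q : ℕ, q.Prime → q ∣ (Cfsg.pPrimeCore p G).index → q ≤ p) ∧
      ((p = 3 ∨ ∀ q : ℕ, q.Prime → q ∣ Nat.card G → p ≤ q) → Cfsg.HasNormalPComplement p G) ∧
      Cfsg.HasNormalPComplement p ↥(commutator G) ∧
      (∀ L : Subgroup ↥(commutator G), (Nat.card L).Coprime p → L ≤ Cfsg.pPrimeCore p ↥(commutator G)) ∧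
      commutator G ≤ Cfsg.pPrimePCore p G ∧ ((Cfsg.pPrimePCore p G).index).Coprime p := by
  have hp : p.Prime := Fact.out
  set K := Cfsg.pPrimeCore p G with hKdef
  have hKcop : (Nat.card K).Coprime p := Cfsg.Agent.Lib.Lead.card_pPrimeCore_coprime p
  have hoddH : Odd (Nat.card (G ⧸ K)) := Odd.of_dvd_nat hodd (Subgroup.card_quotient_dvd_card _)
  have hRp : IsPGroup p (Cfsg.pCore p (G ⧸ K)) := Cfsg.Agent.Lib.Lead.pCore_isPGroup p _
  have hmap : ∀ x ∈ commutator G, QuotientGroup.mk' K x ∈ commutator (G ⧸ K) := by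
    intro x hx
    have h4 : (commutator G).map (QuotientGroup.mk' K) ≤ commutator (G ⧸ K) := by
      rw [commutator_def, Subgroup.map_commutator, commutator_def]
      exact Subgroup.commutator_mono le_top le_top
    exact h4 ⟨x, hx, rfl⟩
  have hpow : ∀ x ∈ commutator G, ∃ k : ℕ, x ^ p ^ k ∈ K := by
    intro x hx
    obtain ⟨k, hk⟩ := hRp ⟨_, h1 (hmap x hx)⟩
    refine ⟨k, ?_⟩
    have h5 : (QuotientGroup.mk' K x) ^ p ^ k = 1 := congrArg Subtype.val hk
    rw [← map_pow] at h5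
    exact (QuotientGroup.eq_one_iff _).1 h5
  set N := K.subgroupOf (commutator G) with hNdef
  have hNcop : (Nat.card N).Coprime p := by
    have h6 : Nat.card N ∣ Nat.card K := by
      rw [← Subgroup.card_map_of_injective (commutator G).subtype_injective, hNdef,
        Subgroup.subgroupOf_map_subtype]
      exact Subgroup.card_dvd_of_le inf_le_left
    exact Nat.Coprime.of_dvd_left h6 hKcop
  have hNn : N.Normal := inferInstance
  have hpowN : ∀ x : commutator G, ∃ k : ℕ, x ^ p ^ k ∈ N := by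
    intro x
    obtain ⟨k, hk⟩ := hpow x x.2
    exact ⟨k, by rw [hNdef, Subgroup.mem_subgroupOf]; simpa using hk⟩
  refine ⟨?_, ?_, ?_, ?_, ?_, ?_⟩
  · intro q hq hqd
    rw [Subgroup.index_eq_card] at hqd
    exact h2 q hq hqd
  · intro hcase
    apply Cfsg.Agent.Lib.Helper34.hasNormalPComplement_of_normal K inferInstance hKcop
    have hcard : Nat.card (G ⧸ K) = p ^ (Nat.card (G ⧸ K)).primeFactorsList.length := by
      apply Nat.eq_prime_pow_of_unique_prime_dvd Nat.card_pos.ne'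
      intro q hq hqd
      have hle := h2 q hq hqd
      rcases hcase with rfl | hmin
      · have hq2 : q ≠ 2 := by
          rintro rfl
          exact (Nat.not_even_iff_odd.2 hoddH) (even_iff_two_dvd.2 hqd)
        have := hq.two_le
        omega
      · exact le_antisymm hle (hmin q hq (hqd.trans (Subgroup.card_quotient_dvd_card _)))
    exact IsPGroup.of_card hcard
  · apply Cfsg.Agent.Lib.Helper34.hasNormalPComplement_of_normal N hNn hNcop
    intro y
    obtain ⟨x, rfl⟩ := QuotientGroup.mk'_surjective N y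
    obtain ⟨k, hk⟩ := hpowN x
    exact ⟨k, by rw [← map_pow]; exact (QuotientGroup.eq_one_iff _).2 hk⟩
  · intro L hL
    refine le_trans ?_ (Cfsg.Agent.Lib.Lead.le_pPrimeCore hNn hNcop)
    intro x hx
    obtain ⟨k, hk⟩ := hpowN x
    apply mem_of_pow_mem_of_coprime N x _ hk
    have h7 : orderOf x ∣ Nat.card L := by
      have := orderOf_dvd_natCard (⟨x, hx⟩ : L)
      rwa [← Subgroup.orderOf_coe] at this
    exact (Nat.Coprime.pow_right k (Nat.Coprime.of_dvd_left h7 hL)).symm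
  · intro x hx
    exact h1 (hmap x hx)
  · have h8 : (Cfsg.pPrimePCore p G).index = (Cfsg.pCore p (G ⧸ K)).index :=
      Subgroup.index_comap_of_surjective _ (QuotientGroup.mk'_surjective K)
    rw [h8]; exact h3

end Cfsg.Agent.Lib.Helper24
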