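/-
Helper library (helper24): Bender–Glauberman local analysis, basic facts on a minimal simple group of odd order.
The Uniqueness Theorem enters as the explicit hypothesis `UT G`.
-/
import Cfsg.Prelude.Def_OddOrderLocal
import Cfsg.Agent.Lib.Helper34.SylowIn
import Cfsg.Agent.Lib.Helper23.Rank
import Cfsg.Agent.Lib.Helper24.NarrowSolv

set_option autoImplicit false
set_option linter.unusedSimpArgs false
set_option linter.unusedVariables false
set_option linter.style.haveILetI false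

namespace Cfsg.Agent.Lib.Helper24

open Cfsg.Agent.Lib.Helper34

variable {G : Type*} [Group G]

/-- The conclusion of the Uniqueness Theorem (BG Theorem 9.6), as a hypothesis. -/
def UT (G : Type*) [Group G] : Prop :=
  ∀ K : Subgroup G, K ≠ ⊤ → ¬ Cfsg.RankLE 1 K →
    (¬ Cfsg.RankLE 2 K ∨ ¬ Cfsg.RankLE 2 (Subgroup.centralizer (K : Set G))) → Cfsg.InUniqueMaximal K

/-- conjugate subgroup `g H g⁻¹`. -/
abbrev cj (g : G) (H : Subgroup G) : Subgroup G := H.map (MulAut.conj g).toMonoidHom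

theorem MS_simple (hG : Cfsg.IsMinSimpleOddOrder G) : IsSimpleGroup G := hG.2.1

theorem MS_solvable (hG : Cfsg.IsMinSimpleOddOrder G) {H : Subgroup G} (hH : H ≠ ⊤) :
    Group.IsSolvable H := hG.2.2.2 H hH

theorem MS_odd (hG : Cfsg.IsMinSimpleOddOrder G) (H : Subgroup G) : Odd (Nat.card H) :=
  Odd.of_dvd_nat hG.1 (Subgroup.card_subgroup_dvd_card H)

theorem MS_prime_ne_two (hG : Cfsg.IsMinSimpleOddOrder G) {p : ℕ} {H : Subgroup G}
    (hp : p ∣ Nat.card H) : p ≠ 2 := by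
  rintro rfl
  have := MS_odd hG H
  rw [← Nat.not_even_iff_odd] at this
  exact this (even_iff_two_dvd.2 hp)

theorem exists_coatom_ge [Finite G] {H : Subgroup G} (hH : H ≠ ⊤) : ∃ M, IsCoatom M ∧ H ≤ M :=
  (eq_top_or_exists_le_coatom H).resolve_left hH

theorem MS_normalizer_ne_top (hG : Cfsg.IsMinSimpleOddOrder G) {D : Subgroup G} (h1 : D ≠ ⊥)
    (h2 : D ≠ ⊤) : Subgroup.normalizer (D : Set G) ≠ ⊤ := by
  intro h
  haveI := MS_simple hG
  have : D.Normal := Subgroup.normalizer_eq_top_iff.mp h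
  rcases this.eq_bot_or_eq_top with h | h
  · exact h1 h
  · exact h2 h

theorem MS_not_solvable (hG : Cfsg.IsMinSimpleOddOrder G) : ¬ Group.IsSolvable G := by
  intro h
  haveI := MS_simple hG
  exact hG.2.2.1 ⟨⟨IsSimpleGroup.comm_iff_isSolvable.2 h⟩⟩

theorem MS_ne_top_of_solvable (hG : Cfsg.IsMinSimpleOddOrder G) {H : Subgroup G}
    (h : Group.IsSolvable H) : H ≠ ⊤ := by
  rintro rfl
  exact MS_not_solvable hG (Group.isSolvable_of_surjective (f := (⊤ : Subgroup G).subtype)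
    (fun g => ⟨⟨g, trivial⟩, rfl⟩))

theorem MS_isPGroup_ne_top [Finite G] (hG : Cfsg.IsMinSimpleOddOrder G) {p : ℕ} [Fact p.Prime]
    {X : Subgroup G} (hX : IsPGroup p X) : X ≠ ⊤ :=
  MS_ne_top_of_solvable hG (by haveI := hX.isNilpotent; infer_instance)

theorem MS_coatom_ne_bot (hG : Cfsg.IsMinSimpleOddOrder G) {M : Subgroup G} (hM : IsCoatom M) :
    M ≠ ⊥ := by
  rintro rfl
  apply MS_not_solvable hG
  by_cases h : ∃ g : G, g ≠ 1
  · obtain ⟨g, hg⟩ := h
    have h1 : Subgroup.zpowers g ≠ ⊤ := MS_ne_top_of_solvable hG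
      (Group.isSolvable_of_comm (fun a b => by
        obtain ⟨i, hi⟩ := Subgroup.mem_zpowers_iff.1 a.2
        obtain ⟨j, hj⟩ := Subgroup.mem_zpowers_iff.1 b.2
        apply Subtype.ext
        show (a : G) * (b : G) = (b : G) * (a : G)
        rw [← hi, ← hj, ← zpow_add, ← zpow_add, add_comm]))
    have h2 : (⊥ : Subgroup G) < Subgroup.zpowers g :=
      bot_lt_iff_ne_bot.2 (fun h => hg (Subgroup.zpowers_eq_bot.1 h))
    exact absurd (hM.2 _ h2) h1
  · push Not at h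
    exact Group.isSolvable_of_comm (fun a b => by rw [h a, h b])

theorem MS_normalizer_coatom (hG : Cfsg.IsMinSimpleOddOrder G) {M : Subgroup G} (hM : IsCoatom M) :
    Subgroup.normalizer (M : Set G) = M := by
  by_contra h
  have h1 : M < Subgroup.normalizer (M : Set G) := lt_of_le_of_ne Subgroup.le_normalizer (Ne.symm h)
  exact MS_normalizer_ne_top hG (MS_coatom_ne_bot hG hM) hM.1 (hM.2 _ h1)

theorem isCoatom_cj {M : Subgroup G} (hM : IsCoatom M) (g : G) : IsCoatom (cj g M) :=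
  ((MulAut.conj g).mapSubgroup.isCoatom_iff M).2 hM

theorem cj_cj (g h : G) (H : Subgroup G) : cj g (cj h H) = cj (g * h) H := map_conj_map_conj g h H

theorem cj_one (H : Subgroup G) : cj 1 H = H := map_conj_one H

theorem cj_inv_cj (g : G) (H : Subgroup G) : cj g⁻¹ (cj g H) = H := by
  rw [cj_cj, inv_mul_cancel, cj_one]

theorem cj_cj_inv (g : G) (H : Subgroup G) : cj g (cj g⁻¹ H) = H := by
  rw [cj_cj, mul_inv_cancel, cj_one]

theorem cj_mono {H K : Subgroup G} (g : G) (h : H ≤ K) : cj g H ≤ cj g K := Subgroup.map_mono h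

theorem cj_eq_of_mem_centralizer {c : G} {X : Subgroup G}
    (hc : c ∈ Subgroup.centralizer (X : Set G)) : cj c X = X :=
  map_conj_eq_self_of_mem_normalizer (centralizer_le_normalizer' X hc)

/-- If `g M g⁻¹ = M` for a maximal subgroup `M` then `g ∈ M`. -/
theorem MS_mem_of_cj_eq (hG : Cfsg.IsMinSimpleOddOrder G) {M : Subgroup G} (hM : IsCoatom M) {g : G}
    (h : cj g M = M) : g ∈ M := by
  have := mem_normalizer_of_map_conj_eq h
  rwa [MS_normalizer_coatom hG hM] at this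

/-! ### uniqueness subgroups -/

theorem le_of_inUniqueMaximal [Finite G] {X M H : Subgroup G} (hU : Cfsg.InUniqueMaximal X)
    (hM : IsCoatom M) (hXM : X ≤ M) (hH : H ≠ ⊤) (hXH : X ≤ H) : H ≤ M := by
  obtain ⟨L, hL, hHL⟩ := exists_coatom_ge hH
  have := hU.unique ⟨hL, hXH.trans hHL⟩ ⟨hM, hXM⟩
  rw [← this]; exact hHL

theorem inUniqueMaximal_mono [Finite G] {X H : Subgroup G} (hU : Cfsg.InUniqueMaximal X)
    (hXH : X ≤ H) (hH : H ≠ ⊤) : Cfsg.InUniqueMaximal H := by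
  obtain ⟨L, hL, hHL⟩ := exists_coatom_ge hH
  refine ⟨L, ⟨hL, hHL⟩, ?_⟩
  rintro L' ⟨hL', hHL'⟩
  exact hU.unique ⟨hL', hXH.trans hHL'⟩ ⟨hL, hXH.trans hHL⟩

theorem eq_of_inUniqueMaximal {X M L : Subgroup G} (hU : Cfsg.InUniqueMaximal X)
    (hM : IsCoatom M) (hXM : X ≤ M) (hL : IsCoatom L) (hXL : X ≤ L) : L = M :=
  hU.unique ⟨hL, hXL⟩ ⟨hM, hXM⟩

/-! ### ranks of subgroups, ambient form -/

theorem pRankLE_iff {p k : ℕ} (R : Subgroup G) :
    Cfsg.PRankLE p k R ↔ ∀ F : Subgroup G, F ≤ R → IsMulCommutative F → (∀ a ∈ F, a ^ p = 1) →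
      Nat.card F ≤ p ^ k := by
  constructor
  · exact rank_of_subtype R
  · intro h A hA hAp
    have h1 := h (A.map R.subtype) (Subgroup.map_subtype_le A) inferInstance
      (by rintro _ ⟨a, ha, rfl⟩; exact congrArg Subtype.val (hAp a ha))
    rwa [Subgroup.card_map_of_injective R.subtype_injective] at h1

theorem pRankLE_mono {p k : ℕ} {X Y : Subgroup G} (h : X ≤ Y) (hY : Cfsg.PRankLE p k Y) :
    Cfsg.PRankLE p k X :=
  (pRankLE_iff X).2 fun F hF => (pRankLE_iff Y).1 hY F (hF.trans h)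

theorem rankLE_mono {k : ℕ} {X Y : Subgroup G} (h : X ≤ Y) (hY : Cfsg.RankLE k Y) :
    Cfsg.RankLE k X := fun p hp => pRankLE_mono h (hY p hp)

theorem pRankLE_succ {p k : ℕ} (hp : 0 < p) {H : Type*} [Group H] (h : Cfsg.PRankLE p k H) :
    Cfsg.PRankLE p (k + 1) H := fun A hA hAp =>
  (h A hA hAp).trans (Nat.pow_le_pow_right hp (Nat.le_succ k))

theorem pRankLE_cj {p k : ℕ} (g : G) {X : Subgroup G} (h : Cfsg.PRankLE p k X) :
    Cfsg.PRankLE p k (cj g X) :=
  (Cfsg.Agent.Lib.Helper23.pRankLE_congr p k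
    (X.equivMapOfInjective _ (MulAut.conj g).injective)).1 h

/-- Elementary abelian witness of `¬ PRankLE p k X`. -/
theorem exists_of_not_pRankLE {p k : ℕ} {X : Subgroup G} (h : ¬ Cfsg.PRankLE p k X) :
    ∃ F : Subgroup G, F ≤ X ∧ IsMulCommutative F ∧ (∀ a ∈ F, a ^ p = 1) ∧ p ^ k < Nat.card F := by
  rw [pRankLE_iff] at h
  push Not at h
  exact h

theorem not_pRankLE_of_le {p k : ℕ} {F X : Subgroup G} (hFX : F ≤ X) (hc : IsMulCommutative F)
    (hp : ∀ a ∈ F, a ^ p = 1) (hcard : p ^ k < Nat.card F) : ¬ Cfsg.PRankLE p k X := fun h =>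
  absurd ((pRankLE_iff X).1 h F hFX hc hp) (not_le.2 hcard)

/-- The `p`-rank of a subgroup is the rank of its Sylow `p`-subgroups. -/
theorem pRankLE_of_isSylowIn [Finite G] {p k : ℕ} [Fact p.Prime] {S N : Subgroup G}
    (hS : IsSylowIn p S N) (h : Cfsg.PRankLE p k S) : Cfsg.PRankLE p k N := by
  rw [pRankLE_iff]
  intro F hF hFc hFp
  have hFpg : IsPGroup p F := fun x => ⟨1, by
    rw [pow_one]; exact Subtype.ext (hFp x x.2)⟩
  obtain ⟨n, hn, hle⟩ := hS.exists_conj_le hF hFpg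
  have h1 := (pRankLE_iff S).1 h (cj n F) hle inferInstance
    (by
      rintro _ ⟨a, ha, rfl⟩
      rw [← map_pow, hFp a ha, map_one])
  rwa [card_map_conj] at h1

/-! ### consequences of the Uniqueness Theorem -/

theorem UT.of_rank3 (hU : UT G) {p : ℕ} (hp : p.Prime) {X : Subgroup G} (hX : X ≠ ⊤)
    (hr : ¬ Cfsg.PRankLE p 2 X) : Cfsg.InUniqueMaximal X :=
  hU X hX (fun h => hr (pRankLE_succ hp.pos (h p hp))) (Or.inl fun h => hr (h p hp))

theorem UT.of_rank2_cent {p q : ℕ} (hU : UT G) (hp : p.Prime) (hq : q.Prime) {X : Subgroup G}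
    (hX : X ≠ ⊤) (hr : ¬ Cfsg.PRankLE p 1 X)
    (hc : ¬ Cfsg.PRankLE q 2 (Subgroup.centralizer (X : Set G))) : Cfsg.InUniqueMaximal X :=
  hU X hX (fun h => hr (h p hp)) (Or.inr fun h => hc (h q hq))

end Cfsg.Agent.Lib.Helper24
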