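/-
Helper library (helper24): facts on solvable groups of odd order in ambient form, used in the
Bender–Glauberman local analysis.
-/
import Cfsg.Agent.Lib.Helper24.BGBase
import Cfsg.Agent.S1450
import Cfsg.Agent.S1461

set_option autoImplicit false
set_option linter.unusedSimpArgs false
set_option linter.unusedVariables false
set_option linter.style.haveILetI false

namespace Cfsg.Agent.Lib.Helper24

open Cfsg.Agent.Lib.Helper34 Cfsg.Agent.Lib.Helper63

/-- Criterion for `p`-length one. -/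
theorem pLengthLE_one_of_chain {H : Type*} [Group H] {p : ℕ} (hp : p.Prime) (K L : Subgroup H)
    [K.Normal] [L.Normal] (hK : (Nat.card K).Coprime p) (hKL : ∃ m : ℕ, K.relIndex L = p ^ m)
    (hL : (L.index).Coprime p) : Cfsg.PLengthLE p 1 H := by
  apply pLengthLE_of_chain hp 1
    (fun n => match n with
      | 0 => ⊥
      | 1 => K
      | 2 => L
      | _ + 3 => ⊤)
  · intro n
    match n with
    | 0 => exact inferInstanceAs (⊥ : Subgroup H).Normal
    | 1 => exact inferInstanceAs K.Normal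
    | 2 => exact inferInstanceAs L.Normal
    | _ + 3 => exact inferInstanceAs (⊤ : Subgroup H).Normal
  · rfl
  · intro n
    match n with
    | 0 =>
      refine ⟨fun _ => ?_, fun h => absurd (by decide) h⟩
      show ((⊥ : Subgroup H).relIndex K).Coprime p
      rw [Subgroup.relIndex_bot_left]; exact hK
    | 1 =>
      exact ⟨fun h => absurd h (by decide), fun _ => hKL⟩
    | 2 =>
      refine ⟨fun _ => ?_, fun h => absurd (by decide) h⟩
      show (L.relIndex ⊤).Coprime p
      rw [Subgroup.relIndex_top_right]; exact hL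
    | k + 3 =>
      refine ⟨fun _ => ?_, fun _ => ⟨0, ?_⟩⟩
      · show ((⊤ : Subgroup H).relIndex ⊤).Coprime p
        rw [Subgroup.relIndex_self]; exact Nat.coprime_one_left p
      · show ((⊤ : Subgroup H).relIndex ⊤) = p ^ 0
        rw [Subgroup.relIndex_self, pow_zero]
  · rfl

theorem pLengthLE_one_of_index_coprime {H : Type*} [Group H] [Finite H] (p : ℕ) [Fact p.Prime]
    (h : ((Cfsg.pPrimePCore p H).index).Coprime p) : Cfsg.PLengthLE p 1 H := by
  have hp : p.Prime := Fact.out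
  haveI : (Cfsg.pPrimePCore p H).Normal := by unfold Cfsg.pPrimePCore; infer_instance
  apply pLengthLE_one_of_chain hp (Cfsg.pPrimeCore p H) (Cfsg.pPrimePCore p H)
    (Cfsg.Agent.Lib.Lead.card_pPrimeCore_coprime p) _ h
  obtain ⟨m, hm⟩ := IsPGroup.iff_card.1 (Cfsg.Agent.Lib.Lead.pCore_isPGroup p (H ⧸ Cfsg.pPrimeCore p H))
  refine ⟨m, ?_⟩
  unfold Cfsg.pPrimePCore
  rw [relIndex_comap_mk', hm]

/-- A solvable group of odd order and `p`-rank at most 2 has `p`-length one. -/
theorem pLengthLE_one_of_rank2 {H : Type*} [Group H] [Finite H] [Group.IsSolvable H]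
    (hodd : Odd (Nat.card H)) (p : ℕ) [Fact p.Prime] (hr : Cfsg.PRankLE p 2 H) :
    Cfsg.PLengthLE p 1 H := by
  have hp : p.Prime := Fact.out
  by_cases hpH : p ∣ Nat.card H
  · exact pLengthLE_one_of_index_coprime p (Cfsg.Agent.S1450.result hodd p hpH hr).2.2.2.2.2
  · exact PLengthLE.mono (pLengthLE_zero_of_coprime ((Nat.Prime.coprime_iff_not_dvd hp).2 hpH).symm)
      (Nat.zero_le 1)

variable {G : Type*} [Group G]

theorem mem_normalizer_of_subgroupOf {N S : Subgroup G} (hSN : S ≤ N) {m : N}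
    (hm : m ∈ Subgroup.normalizer ((S.subgroupOf N : Subgroup N) : Set N)) :
    (m : G) ∈ Subgroup.normalizer (S : Set G) := by
  rw [Subgroup.mem_normalizer_iff] at hm ⊢
  intro x
  constructor
  · intro hx
    exact (hm ⟨x, hSN hx⟩).1 hx
  · intro hx
    have hxN : x ∈ N := by
      have h1 : (m : G)⁻¹ * ((m : G) * x * (m : G)⁻¹) * (m : G) ∈ N :=
        N.mul_mem (N.mul_mem (N.inv_mem m.2) (hSN hx)) m.2
      have h2 : (m : G)⁻¹ * ((m : G) * x * (m : G)⁻¹) * (m : G) = x := by group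
      rwa [h2] at h1
    exact (hm ⟨x, hxN⟩).2 hx

/-- Frattini factorization of a subgroup of `p`-length one, ambient form. -/
theorem exists_frattini_of_pLength_one [Finite G] (p : ℕ) [Fact p.Prime] {N S : Subgroup G}
    (hpl : Cfsg.PLengthLE p 1 N) (hS : IsSylowIn p S N) :
    ∃ K : Subgroup G, K ≤ N ∧ N ≤ Subgroup.normalizer (K : Set G) ∧ (Nat.card K).Coprime p ∧
      ∀ n ∈ N, ∃ k ∈ K, ∃ m ∈ N ⊓ Subgroup.normalizer (S : Set G), n = k * m := by
  obtain ⟨K0, hK0n, hK0c, hsup⟩ := Cfsg.Agent.S1461.key p hpl hS.toSylow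
  refine ⟨K0.map N.subtype, Subgroup.map_subtype_le K0, ?_, ?_, ?_⟩
  · rw [Subgroup.le_normalizer_iff]
    rintro g hg _ ⟨k, hk, rfl⟩
    exact ⟨⟨g, hg⟩ * k * ⟨g, hg⟩⁻¹, hK0n.conj_mem k hk _, rfl⟩
  · rw [Subgroup.card_map_of_injective N.subtype_injective]; exact hK0c
  · intro n hn
    have h1 : (⟨n, hn⟩ : N) ∈ K0 ⊔ Subgroup.normalizer (((hS.toSylow : Sylow p N) : Subgroup N) : Set N) := by
      rw [hsup]; trivial
    rw [← SetLike.mem_coe, Subgroup.normal_mul] at h1
    obtain ⟨k, hk, m, hm, hkm⟩ := Set.mem_mul.1 h1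
    refine ⟨k, ⟨k, hk, rfl⟩, m, ⟨m.2, ?_⟩, ?_⟩
    · apply mem_normalizer_of_subgroupOf hS.1
      rw [← hS.coe_toSylow]; exact hm
    · exact (congrArg Subtype.val hkm).symm

/-- A normal `p'`-subgroup `K` of `N` centralizes every normal `p`-subgroup `X` of `N`. -/
theorem le_centralizer_of_normal_coprime [Finite G] {p : ℕ} [Fact p.Prime] {N K X : Subgroup G}
    (hKN : K ≤ N) (hXN : X ≤ N)
    (hNK : N ≤ Subgroup.normalizer (K : Set G)) (hNX : N ≤ Subgroup.normalizer (X : Set G))
    (hK : (Nat.card K).Coprime p) (hX : IsPGroup p X) : K ≤ Subgroup.centralizer (X : Set G) := by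
  have h1 : ⁅K, X⁆ ≤ K ⊓ X := le_inf
    (Subgroup.le_normalizer_iff_commutator_le_left.1 (hXN.trans hNK))
    (Subgroup.le_normalizer_iff_commutator_le_right.1 (hKN.trans hNX))
  have h2 : K ⊓ X = ⊥ := by
    have := Subgroup.disjoint_of_coprime_natCard (coprime_card_of_isPGroup hK hX)
    exact disjoint_iff.1 this
  rw [h2, le_bot_iff] at h1
  exact Subgroup.commutator_eq_bot_iff_le_centralizer.1 h1

end Cfsg.Agent.Lib.Helper24
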