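/-
Helper library (helper24): Bender–Glauberman Section 10, Lemma 10.1 (the set `σ(M)`).
-/
import Cfsg.Agent.Lib.Helper24.BGSolv

set_option autoImplicit false
set_option linter.unusedSimpArgs false
set_option linter.unusedVariables false
set_option linter.style.haveILetI false

namespace Cfsg.Agent.Lib.Helper24

open Cfsg.Agent.Lib.Helper34

variable {G : Type*} [Group G]

theorem le_cj_iff {g : G} {X M : Subgroup G} : X ≤ cj g M ↔ cj g⁻¹ X ≤ M := by
  have := map_conj_le_iff g⁻¹ X M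
  rw [inv_inv] at this
  exact this.symm

theorem cj_eq_of_le_of_card [Finite G] {g : G} {X Y : Subgroup G} (h : cj g X ≤ Y)
    (hc : Nat.card Y ≤ Nat.card X) : cj g X = Y :=
  Subgroup.eq_of_le_of_card_ge h (by rw [card_map_conj]; exact hc)

theorem mem_sigma_iff [Finite G] {M : Subgroup G} {p : ℕ} [hp : Fact p.Prime] :
    p ∈ Cfsg.sigma M ↔ p ∣ Nat.card M ∧
      ∃ P : Subgroup G, IsSylowIn p P M ∧ Subgroup.normalizer (P : Set G) ≤ M := by
  constructor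
  · rintro ⟨-, hd, P, hP⟩
    exact ⟨hd, _, Sylow.isSylowIn_map P, hP⟩
  · rintro ⟨hd, P, hP, hN⟩
    refine ⟨hp.out, hd, hP.toSylow, ?_⟩
    rw [hP.coe_toSylow, Subgroup.subgroupOf_map_subtype, inf_eq_left.2 hP.1]
    exact hN

theorem isSylowIn_exists_cj_eq [Finite G] {p : ℕ} [Fact p.Prime] {P Q M : Subgroup G}
    (hP : IsSylowIn p P M) (hQ : IsSylowIn p Q M) : ∃ n ∈ M, cj n Q = P := by
  obtain ⟨n, hn, hle⟩ := hP.exists_conj_le hQ.1 hQ.2.1
  exact ⟨n, hn, cj_eq_of_le_of_card hle (by rw [hP.card_eq, hQ.card_eq])⟩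

theorem sigma_normalizer_le [Finite G] {M : Subgroup G} {p : ℕ} [Fact p.Prime]
    (hp : p ∈ Cfsg.sigma M) {P : Subgroup G} (hP : IsSylowIn p P M) :
    Subgroup.normalizer (P : Set G) ≤ M := by
  obtain ⟨-, Q, hQ, hN⟩ := mem_sigma_iff.1 hp
  obtain ⟨n, hn, rfl⟩ := isSylowIn_exists_cj_eq hP hQ
  rw [normalizer_map_conj]
  calc cj n (Subgroup.normalizer (Q : Set G)) ≤ cj n M := cj_mono n hN
    _ = M := map_conj_eq_self_of_mem hn

theorem sigma_isSylowIn_top [Finite G] {M : Subgroup G} {p : ℕ} [Fact p.Prime]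
    (hp : p ∈ Cfsg.sigma M) {P : Subgroup G} (hP : IsSylowIn p P M) : IsSylowIn p P ⊤ := by
  obtain ⟨S, hS, hPS⟩ := exists_isSylowIn_ge (le_top : P ≤ ⊤) hP.2.1
  by_cases h : P = S
  · rw [h]; exact hS
  · exfalso
    obtain ⟨x, hxS, hxN, hxP⟩ := exists_mem_normalizer_not_mem hS.2.1.isNilpotent (lt_of_le_of_ne hPS h)
    have h1 := hP.eq_of_le (R := S ⊓ M) inf_le_right hS.2.1.to_inf_left (le_inf hPS hP.1)
    apply hxP
    rw [h1]
    exact ⟨hxS, sigma_normalizer_le hp hP hxN⟩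

theorem sigma_cj [Finite G] {M : Subgroup G} {p : ℕ} [Fact p.Prime] (hp : p ∈ Cfsg.sigma M) (g : G) :
    p ∈ Cfsg.sigma (cj g M) := by
  obtain ⟨hd, P, hP, hN⟩ := mem_sigma_iff.1 hp
  refine mem_sigma_iff.2 ⟨by rw [card_map_conj]; exact hd, cj g P, hP.map_conj g, ?_⟩
  rw [normalizer_map_conj]
  exact cj_mono g hN

/-- **BG Lemma 10.1(c)**, symmetric form: for `p ∈ σ(M₁)` and a `p`-subgroup `X`, the centralizer `C(X)` is
transitive on the conjugates of `M₁` containing `X`. -/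
theorem sigma_trans [Finite G] (hG : Cfsg.IsMinSimpleOddOrder G) (hU : UT G) (p : ℕ) [Fact p.Prime]
    (X : Subgroup G) (hX : IsPGroup p X) :
    ∀ M₁ M₂ : Subgroup G, IsCoatom M₁ → p ∈ Cfsg.sigma M₁ → (∃ g, M₂ = cj g M₁) → X ≤ M₁ → X ≤ M₂ →
      ∃ c ∈ Subgroup.centralizer (X : Set G), M₂ = cj c M₁ := by
  have hp : p.Prime := Fact.out
  induction hd : Nat.card G - Nat.card X using Nat.strong_induction_on generalizing X with
  | _ d ih =>
  subst hd
  have IH : ∀ Y : Subgroup G, IsPGroup p Y → Nat.card X < Nat.card Y →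
      ∀ M₁ M₂ : Subgroup G, IsCoatom M₁ → p ∈ Cfsg.sigma M₁ → (∃ g, M₂ = cj g M₁) → Y ≤ M₁ → Y ≤ M₂ →
      ∃ c ∈ Subgroup.centralizer (Y : Set G), M₂ = cj c M₁ := by
    intro Y hY hlt
    have h1 : Nat.card Y ≤ Nat.card G := Subgroup.card_le_card_group Y
    exact ih _ (by omega) Y hY rfl
  rintro M₁ _ hM₁ hp₁ ⟨g, rfl⟩ hX₁ hX₂
  by_cases hXbot : X = ⊥
  · refine ⟨g, ?_, rfl⟩
    rw [hXbot, Subgroup.mem_centralizer_iff]
    intro h hh
    rw [Subgroup.mem_bot.1 hh, one_mul, mul_one]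
  have hXtop : X ≠ ⊤ := MS_isPGroup_ne_top hG hX
  set N := Subgroup.normalizer (X : Set G) with hN
  have hNtop : N ≠ ⊤ := MS_normalizer_ne_top hG hXbot hXtop
  have hXN : X ≤ N := Subgroup.le_normalizer
  obtain ⟨S₀, hS₀, hXS₀⟩ := exists_isSylowIn_ge hXN hX
  by_cases hXS : X = S₀
  · -- `X` is a Sylow subgroup of its normalizer
    have hsyl : ∀ M' : Subgroup G, X ≤ M' → IsSylowIn p X M' := by
      intro M' hXM'
      obtain ⟨T, hT, hXT⟩ := exists_isSylowIn_ge hXM' hX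
      by_cases hXT' : X = T
      · rw [hXT']; exact hT
      · exfalso
        obtain ⟨x, hxT, hxN, hxX⟩ :=
          exists_mem_normalizer_not_mem hT.2.1.isNilpotent (lt_of_le_of_ne hXT hXT')
        have h1 := hS₀.eq_of_le (R := T ⊓ N) inf_le_right hT.2.1.to_inf_left
          (by rw [← hXS]; exact le_inf hXT hXN)
        apply hxX
        rw [hXS, h1]
        exact ⟨hxT, hxN⟩
    have h1 := hsyl M₁ hX₁
    have h2 : cj g⁻¹ X ≤ M₁ := le_cj_iff.1 hX₂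
    obtain ⟨m, hm, hle⟩ := h1.exists_conj_le h2 (isPGroup_map_conj _ hX)
    have h3 : cj (m * g⁻¹) X = X := by
      rw [← cj_cj]
      exact cj_eq_of_le_of_card hle (by rw [card_map_conj])
    have h4 : m * g⁻¹ ∈ M₁ := sigma_normalizer_le hp₁ h1 (mem_normalizer_of_map_conj_eq h3)
    have h5 : g ∈ M₁ := by
      have h6 : g = (m * g⁻¹)⁻¹ * m := by group
      rw [h6]; exact M₁.mul_mem (M₁.inv_mem h4) hm
    exact ⟨1, Subgroup.one_mem _, by rw [cj_one]; exact map_conj_eq_self_of_mem h5⟩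
  -- `X < S₀`
  have hXltS : X < S₀ := lt_of_le_of_ne hXS₀ hXS
  have hcardS : Nat.card X < Nat.card S₀ := card_lt_of_lt hXltS
  -- a conjugate `M₀` of `M₁` containing `S₀`
  obtain ⟨P₁, hP₁, -⟩ := exists_isSylowIn_ge hX₁ hX
  obtain ⟨h, -, hh⟩ := (sigma_isSylowIn_top hp₁ hP₁).exists_conj_le (le_top : S₀ ≤ ⊤) hS₀.2.1
  set M₀ := cj h⁻¹ M₁ with hM₀def
  have hS₀M₀ : S₀ ≤ M₀ := by
    rw [hM₀def, le_cj_iff, inv_inv]; exact hh.trans hP₁.1
  have hM₀ : IsCoatom M₀ := isCoatom_cj hM₁ _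
  have hp₀ : p ∈ Cfsg.sigma M₀ := sigma_cj hp₁ _
  have hCS : Subgroup.centralizer (S₀ : Set G) ≤ Subgroup.centralizer (X : Set G) :=
    Subgroup.centralizer_le hXS₀
  -- Step C
  have stepC : ∀ n ∈ N, ∃ c ∈ Subgroup.centralizer (X : Set G), ∃ m ∈ M₀, n = c * m := by
    intro n hn
    by_cases hr : Cfsg.PRankLE p 2 S₀
    · haveI := MS_solvable hG hNtop
      have hpl : Cfsg.PLengthLE p 1 N :=
        pLengthLE_one_of_rank2 (MS_odd hG N) p (pRankLE_of_isSylowIn hS₀ hr)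
      obtain ⟨K, hKN, hNK, hKc, hfr⟩ := exists_frattini_of_pLength_one p hpl hS₀
      have hKX : K ≤ Subgroup.centralizer (X : Set G) :=
        le_centralizer_of_normal_coprime hKN hXN hNK le_rfl hKc hX
      obtain ⟨k, hk, m, hm, rfl⟩ := hfr n hn
      have h1 : S₀ ≤ cj m M₀ := by
        have h2 := cj_mono m hS₀M₀
        rwa [show cj m S₀ = S₀ from map_conj_eq_self_of_mem_normalizer hm.2] at h2
      obtain ⟨c, hc, hcm⟩ := IH S₀ hS₀.2.1 hcardS M₀ (cj m M₀) hM₀ hp₀ ⟨m, rfl⟩ hS₀M₀ h1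
      have h3 : cj (c⁻¹ * m) M₀ = M₀ := by
        rw [← cj_cj, hcm, cj_inv_cj]
      refine ⟨k * c, Subgroup.mul_mem _ (hKX hk) (hCS hc), c⁻¹ * m, MS_mem_of_cj_eq hG hM₀ h3, ?_⟩
      group
    · have hS₀U := hU.of_rank3 hp (MS_isPGroup_ne_top hG hS₀.2.1) hr
      exact ⟨1, Subgroup.one_mem _, n,
        le_of_inUniqueMaximal hS₀U hM₀ hS₀M₀ hNtop hS₀.1 hn, (one_mul n).symm⟩
  -- the claim
  have claim : ∀ g' : G, X ≤ cj g' M₁ → ∃ c ∈ Subgroup.centralizer (X : Set G), cj g' M₁ = cj c M₀ := by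
    intro g' hXM'
    set M' := cj g' M₁ with hM'def
    have hM' : IsCoatom M' := isCoatom_cj hM₁ _
    have hp' : p ∈ Cfsg.sigma M' := sigma_cj hp₁ _
    obtain ⟨P', hP', hXP'⟩ := exists_isSylowIn_ge (le_inf hXM' hXN) hX
    have hXneP' : X ≠ P' := by
      intro hXP
      obtain ⟨T, hT, hXT⟩ := exists_isSylowIn_ge hXM' hX
      have hXT' : X ≠ T := by
        intro hXT'
        have h1 : IsSylowIn p X ⊤ := by rw [hXT']; exact sigma_isSylowIn_top hp' hT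
        exact hXS (h1.eq_of_le le_top hS₀.2.1 hXS₀)
      obtain ⟨x, hxT, hxN, hxX⟩ :=
        exists_mem_normalizer_not_mem hT.2.1.isNilpotent (lt_of_le_of_ne hXT hXT')
      have h1 := hP'.eq_of_le (R := T ⊓ N) (le_inf (inf_le_left.trans hT.1) inf_le_right)
        hT.2.1.to_inf_left (by rw [← hXP]; exact le_inf hXT hXN)
      apply hxX
      rw [hXP, h1]
      exact ⟨hxT, hxN⟩
    have hcardP' : Nat.card X < Nat.card P' := card_lt_of_lt (lt_of_le_of_ne hXP' hXneP')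
    obtain ⟨y, hy, hyle⟩ := hS₀.exists_conj_le (hP'.1.trans inf_le_right) hP'.2.1
    have hXY : X ≤ cj y P' := by
      have h2 := cj_mono y hXP'
      rwa [show cj y X = X from map_conj_eq_self_of_mem_normalizer hy] at h2
    obtain ⟨c, hc, hcy⟩ := IH (cj y P') (isPGroup_map_conj _ hP'.2.1)
      (by rw [card_map_conj]; exact hcardP') M₀ (cj y M') hM₀ hp₀
      ⟨y * g' * h, by rw [hM'def, hM₀def, cj_cj, cj_cj]; congr 1; group⟩
      (hyle.trans hS₀M₀) (cj_mono y (hP'.1.trans inf_le_left))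
    have hcX : c ∈ Subgroup.centralizer (X : Set G) := Subgroup.centralizer_le hXY hc
    have hM'eq : M' = cj (y⁻¹ * c) M₀ := by
      rw [← cj_cj, ← hcy, cj_inv_cj]
    have hycN : y⁻¹ * c ∈ N := N.mul_mem (N.inv_mem hy) (centralizer_le_normalizer' X hcX)
    obtain ⟨c', hc', m, hm, hcm⟩ := stepC _ hycN
    refine ⟨c', hc', ?_⟩
    rw [hM'eq, hcm, ← cj_cj, show cj m M₀ = M₀ from map_conj_eq_self_of_mem hm]
  obtain ⟨c₁, hc₁, h₁⟩ := claim 1 (by rw [cj_one]; exact hX₁)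
  obtain ⟨c₂, hc₂, h₂⟩ := claim g hX₂
  rw [cj_one] at h₁
  refine ⟨c₂ * c₁⁻¹, Subgroup.mul_mem _ hc₂ (Subgroup.inv_mem _ hc₁), ?_⟩
  rw [h₂, ← cj_cj, h₁, cj_inv_cj]

/-- **BG Lemma 10.1(c)**. -/
theorem sigma_conj [Finite G] (hG : Cfsg.IsMinSimpleOddOrder G) (hU : UT G) {M : Subgroup G}
    (hM : IsCoatom M) {p : ℕ} [Fact p.Prime] (hp : p ∈ Cfsg.sigma M) {X : Subgroup G}
    (hX : IsPGroup p X) (hXM : X ≤ M) {g : G} (hg : cj g X ≤ M) :
    ∃ m ∈ M, ∃ c ∈ Subgroup.centralizer (X : Set G), g = m * c := by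
  obtain ⟨c, hc, hcm⟩ := sigma_trans hG hU p X hX M (cj g⁻¹ M) hM hp ⟨_, rfl⟩ hXM
    (by rw [le_cj_iff, inv_inv]; exact hg)
  have h1 : cj (g * c) M = M := by rw [← cj_cj, ← hcm, cj_cj_inv]
  exact ⟨g * c, MS_mem_of_cj_eq hG hM h1, c⁻¹, Subgroup.inv_mem _ hc, by group⟩

/-- **BG Lemma 10.1(d)**. -/
theorem sigma_normalizer_eq [Finite G] (hG : Cfsg.IsMinSimpleOddOrder G) (hU : UT G) {M : Subgroup G}
    (hM : IsCoatom M) {p : ℕ} [Fact p.Prime] (hp : p ∈ Cfsg.sigma M) {X : Subgroup G}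
    (hX : IsPGroup p X) (hXM : X ≤ M) :
    Subgroup.normalizer (X : Set G) =
      (M ⊓ Subgroup.normalizer (X : Set G)) ⊔ Subgroup.centralizer (X : Set G) := by
  apply le_antisymm
  · intro n hn
    obtain ⟨m, hm, c, hc, rfl⟩ := sigma_conj hG hU hM hp hX hXM
      (by rw [show cj n X = X from map_conj_eq_self_of_mem_normalizer hn]; exact hXM)
    have hcN := centralizer_le_normalizer' X hc
    have hmN : m ∈ Subgroup.normalizer (X : Set G) := by
      have h1 : m = (m * c) * c⁻¹ := by group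
      rw [h1]; exact Subgroup.mul_mem _ hn (Subgroup.inv_mem _ hcN)
    exact Subgroup.mul_mem _ (Subgroup.mem_sup_left ⟨hm, hmN⟩) (Subgroup.mem_sup_right hc)
  · exact sup_le inf_le_right (centralizer_le_normalizer' X)

end Cfsg.Agent.Lib.Helper24
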