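/-
Helper library (helper24): Bender–Glauberman Section 10, Theorem 10.2 (`M_α` and `M_σ` are Hall subgroups).
-/
import Cfsg.Agent.Lib.Helper24.BG10a
import Cfsg.Agent.Lib.Helper24.Rank2Fitting
import Cfsg.Agent.Lib.Helper23.Cores
import Cfsg.Agent.Lib.Helper33.Transfer
import Cfsg.Agent.Lib.Helper1.Fitting

set_option autoImplicit false
set_option linter.unusedSimpArgs false
set_option linter.unusedVariables false
set_option linter.style.haveILetI false

namespace Cfsg.Agent.Lib.Helper24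

open Cfsg.Agent.Lib.Helper34
open scoped commutatorElement

theorem isNilpotent_of_le {H : Type*} [Group H] {K F : Subgroup H} (h : K ≤ F)
    (hF : Group.IsNilpotent F) : Group.IsNilpotent K :=
  Group.nilpotent_of_mulEquiv (Subgroup.subgroupOfEquivOfLe h)

/-- `x ^ m` is a `p`-element for a suitable `m` prime to `p`. -/
theorem exists_pPart {H : Type*} [Group H] [Finite H] (p : ℕ) [Fact p.Prime] (x : H) :
    ∃ m a : ℕ, ¬ p ∣ m ∧ (x ^ m) ^ p ^ a = 1 := by
  have hp : p.Prime := Fact.out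
  obtain ⟨a, m, hm, h⟩ := Nat.exists_eq_pow_mul_and_not_dvd (orderOf_pos x).ne' p hp.ne_one
  refine ⟨m, a, hm, ?_⟩
  rw [← pow_mul, mul_comm, ← h, pow_orderOf_eq_one]

/-- **Abstract form of BG Theorem 10.2.**  Let `H` be solvable of odd order and `π` a set of primes such that `H`
has `p`-rank at most 2 for `p ∉ π`, and all `p`-elements lie in `H'` for `p ∈ π`.  Then `O_π(H)` is a Hall
`π`-subgroup, `H / O_π(H)` has rank at most 2 and its derived group is nilpotent. -/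
theorem hall_core_of_rank2 {H : Type*} [Group H] [Finite H] [Group.IsSolvable H]
    (hodd : Odd (Nat.card H)) (π : Set ℕ)
    (h1 : ∀ p : ℕ, p.Prime → p ∉ π → Cfsg.PRankLE p 2 H)
    (h2 : ∀ p : ℕ, p.Prime → p ∈ π → ∀ x : H, (∃ k : ℕ, x ^ p ^ k = 1) → x ∈ commutator H) :
    (∀ p : ℕ, p.Prime → p ∈ π → ¬ p ∣ (Cfsg.piCore π H).index) ∧
      Cfsg.RankLE 2 (H ⧸ Cfsg.piCore π H) ∧
      commutator (H ⧸ Cfsg.piCore π H) ≤ Cfsg.fittingSubgroup (H ⧸ Cfsg.piCore π H) := by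
  set N := Cfsg.piCore π H with hN
  set f := QuotientGroup.mk' N with hf
  have hfs : Function.Surjective f := QuotientGroup.mk'_surjective N
  have hNπ := Cfsg.Agent.Lib.Helper23.piCore_primes π H
  rw [← hN] at hNπ
  have hoddQ : Odd (Nat.card (H ⧸ N)) := Odd.of_dvd_nat hodd (Subgroup.card_quotient_dvd_card _)
  -- (a)
  have ha : ∀ p : ℕ, p.Prime → p ∈ π → Cfsg.pCore p (H ⧸ N) = ⊥ := by
    intro p hp hpπ
    haveI : Fact p.Prime := ⟨hp⟩
    set L := (Cfsg.pCore p (H ⧸ N)).comap f with hL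
    have hLcard : Nat.card L = Nat.card N * Nat.card (Cfsg.pCore p (H ⧸ N)) :=
      Cfsg.Agent.Lib.Lead.card_comap_mk' N _
    obtain ⟨k, hk⟩ := IsPGroup.iff_card.1 (Cfsg.Agent.Lib.Lead.pCore_isPGroup p (H ⧸ N))
    have hLN : L ≤ N := by
      rw [hN]
      apply le_sSup
      refine ⟨inferInstance, ?_⟩
      intro q hq hqd
      rw [hLcard, hk] at hqd
      rcases (Nat.Prime.dvd_mul hq).1 hqd with h | h
      · exact hNπ q hq h
      · rw [(Nat.prime_dvd_prime_iff_eq hq hp).1 (hq.dvd_of_dvd_pow h)]; exact hpπ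
    rw [← Subgroup.map_comap_eq_self_of_surjective hfs (Cfsg.pCore p (H ⧸ N)), eq_bot_iff,
      ← QuotientGroup.map_mk'_self N]
    exact Subgroup.map_mono hLN
  -- (b)
  have hb : ∀ p : ℕ, p.Prime → p ∉ π → Cfsg.PRankLE p 2 (H ⧸ N) := by
    intro p hp hpπ
    haveI : Fact p.Prime := ⟨hp⟩
    apply pRankLE_quotient p 2 N _ (h1 p hp hpπ)
    exact ((Nat.Prime.coprime_iff_not_dvd hp).2 (fun h => hpπ (hNπ p hp h))).symm
  -- (c), (d)
  have hd : commutator (H ⧸ N) ≤ Cfsg.fittingSubgroup (H ⧸ N) := by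
    apply commutator_le_fitting_of_rank2 hoddQ
    intro p hp F hF hFc hFp
    by_cases hpπ : p ∈ π
    · rw [ha p hp hpπ, le_bot_iff] at hF
      rw [hF, Subgroup.card_bot]
      exact Nat.one_le_pow _ _ hp.pos
    · exact hb p hp hpπ F hFc hFp
  -- (e)
  have he : ∀ p : ℕ, p.Prime → p ∈ π → ¬ p ∣ N.index := by
    intro p hp hpπ hdvd
    haveI : Fact p.Prime := ⟨hp⟩
    rw [Subgroup.index_eq_card] at hdvd
    obtain ⟨y, hy⟩ := exists_prime_orderOf_dvd_card' p hdvd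
    obtain ⟨x, rfl⟩ := hfs y
    obtain ⟨m, a, hm, hxm⟩ := exists_pPart p x
    have h3 : x ^ m ∈ commutator H := h2 p hp hpπ _ ⟨a, hxm⟩
    have h4 : f (x ^ m) ∈ commutator (H ⧸ N) := by
      have h5 : (commutator H).map f ≤ commutator (H ⧸ N) := by
        rw [commutator_def, Subgroup.map_commutator, commutator_def]
        exact Subgroup.commutator_mono le_top le_top
      exact h5 ⟨_, h3, rfl⟩
    have h6 : f (x ^ m) ∈ Cfsg.pCore p (H ⧸ N) :=
      mem_pCore_of_mem_fitting p _ (hd h4) a (by rw [← map_pow, hxm, map_one])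
    rw [ha p hp hpπ, Subgroup.mem_bot, map_pow] at h6
    have h7 := orderOf_dvd_of_pow_eq_one h6
    rw [hy] at h7
    exact hm h7
  refine ⟨he, ?_, hd⟩
  intro p hp
  by_cases hpπ : p ∈ π
  · intro A hAc hAp
    haveI : Fact p.Prime := ⟨hp⟩
    have hApg : IsPGroup p A := fun a => ⟨1, by rw [pow_one]; exact Subtype.ext (hAp a a.2)⟩
    obtain ⟨k, hk⟩ := IsPGroup.iff_card.1 hApg
    rcases Nat.eq_zero_or_pos k with rfl | hkpos
    · rw [hk, pow_zero]; exact Nat.one_le_pow _ _ hp.pos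
    · exfalso
      apply he p hp hpπ
      rw [Subgroup.index_eq_card]
      refine Dvd.dvd.trans ?_ (Subgroup.card_subgroup_dvd_card A)
      rw [hk]; exact dvd_pow_self p hkpos.ne'
  · exact hb p hp hpπ

variable {G : Type*} [Group G]

theorem MS_commutator_eq_top (hG : Cfsg.IsMinSimpleOddOrder G) :
    ⁅(⊤ : Subgroup G), (⊤ : Subgroup G)⁆ = ⊤ := by
  haveI := MS_simple hG
  have hn : (⁅(⊤ : Subgroup G), (⊤ : Subgroup G)⁆).Normal := inferInstance
  rcases hn.eq_bot_or_eq_top with h | h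
  · exfalso
    apply hG.2.2.1
    refine ⟨⟨fun a b => ?_⟩⟩
    have h1 : ⁅a, b⁆ ∈ ⁅(⊤ : Subgroup G), (⊤ : Subgroup G)⁆ :=
      Subgroup.commutator_mem_commutator trivial trivial
    rw [h, Subgroup.mem_bot] at h1
    exact commutatorElement_eq_one_iff_mul_comm.1 h1
  · exact h

/-- `α(M) ⊆ σ(M)`. -/
theorem alpha_subset_sigma [Finite G] (hG : Cfsg.IsMinSimpleOddOrder G) (hU : UT G) {M : Subgroup G}
    (hM : IsCoatom M) {p : ℕ} (hp : p ∈ Cfsg.alpha M) : p ∈ Cfsg.sigma M := by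
  obtain ⟨hpp, hr⟩ := hp
  haveI : Fact p.Prime := ⟨hpp⟩
  obtain ⟨P, hP, -⟩ := exists_isSylowIn_ge (bot_le : (⊥ : Subgroup G) ≤ M) (IsPGroup.of_bot (p := p))
  have hrP : ¬ Cfsg.PRankLE p 2 P := fun h => hr (pRankLE_of_isSylowIn hP h)
  have hPtop : P ≠ ⊤ := MS_isPGroup_ne_top hG hP.2.1
  have hPU := hU.of_rank3 hpp hPtop hrP
  have hPbot : P ≠ ⊥ := by
    rintro rfl
    apply hrP
    rw [pRankLE_iff]
    intro F hF _ _
    rw [le_bot_iff.1 hF, Subgroup.card_bot]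
    exact Nat.one_le_pow _ _ hpp.pos
  refine mem_sigma_iff.2 ⟨?_, P, hP,
    le_of_inUniqueMaximal hPU hM hP.1 (MS_normalizer_ne_top hG hPbot hPtop) Subgroup.le_normalizer⟩
  obtain ⟨k, hk⟩ := IsPGroup.iff_card.1 hP.2.1
  have hk0 : k ≠ 0 := by
    rintro rfl
    rw [pow_zero] at hk
    exact hPbot (Subgroup.card_eq_one.1 hk)
  exact (hk ▸ dvd_pow_self p hk0 : p ∣ Nat.card P).trans (Subgroup.card_dvd_of_le hP.1)

/-- For `p ∈ σ(M)` the Sylow `p`-subgroups of `M` lie in `M'` (transfer). -/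
theorem sigma_sylow_le_commutator [Finite G] (hG : Cfsg.IsMinSimpleOddOrder G) (hU : UT G)
    {M : Subgroup G} (hM : IsCoatom M) {p : ℕ} [Fact p.Prime] (hp : p ∈ Cfsg.sigma M)
    {P : Subgroup G} (hP : IsSylowIn p P M) : P ≤ ⁅M, M⁆ := by
  have hPtop : Cfsg.Agent.Lib.Helper33.RelSyl p P ⊤ := sigma_isSylowIn_top hp hP
  have h1 := hPtop.inf_commutator_le (D := ⁅M, M⁆) (by
    intro x hx u _ hux
    have hXP : Subgroup.zpowers x ≤ P := Subgroup.zpowers_le.2 hx
    have hcj : cj u (Subgroup.zpowers x) ≤ M := by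
      rw [show cj u (Subgroup.zpowers x) = Subgroup.zpowers ((MulAut.conj u).toMonoidHom x) from
        MonoidHom.map_zpowers _ _, Subgroup.zpowers_le]
      exact hP.1 hux
    obtain ⟨m, hm, c, hc, rfl⟩ := sigma_conj hG hU hM hp (hP.2.1.to_le hXP) (hXP.trans hP.1) hcj
    have hcx : x * c = c * x := (Subgroup.mem_centralizer_iff.1 hc) x (Subgroup.mem_zpowers x)
    have h2 : m * c * x * (m * c)⁻¹ * x⁻¹ = ⁅m, x⁆ := by
      rw [commutatorElement_def, mul_assoc m c x, ← hcx]; group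
    rw [h2]
    exact Subgroup.commutator_mem_commutator hm (hP.1 hx))
  rw [MS_commutator_eq_top hG, inf_top_eq] at h1
  exact h1

/-- The hypotheses of `hall_core_of_rank2` for `↥M` and a set `π` with `α(M) ⊆ π ⊆ σ(M)`. -/
theorem hall_core_of_coatom [Finite G] (hG : Cfsg.IsMinSimpleOddOrder G) (hU : UT G)
    {M : Subgroup G} (hM : IsCoatom M) (π : Set ℕ) (h1 : Cfsg.alpha M ⊆ π) (h2 : π ⊆ Cfsg.sigma M) :
    (∀ p : ℕ, p.Prime → p ∈ π → ¬ p ∣ (Cfsg.piCore π M).index) ∧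
      Cfsg.RankLE 2 (M ⧸ Cfsg.piCore π M) ∧
      commutator (M ⧸ Cfsg.piCore π M) ≤ Cfsg.fittingSubgroup (M ⧸ Cfsg.piCore π M) := by
  haveI := MS_solvable hG hM.1
  apply hall_core_of_rank2 (MS_odd hG M) π
  · intro p hp hpπ
    by_contra hr
    exact hpπ (h1 ⟨hp, hr⟩)
  · rintro p hp hpπ x ⟨k, hk⟩
    haveI : Fact p.Prime := ⟨hp⟩
    have hxp : IsPGroup p (Subgroup.zpowers (x : G)) := by
      rw [IsPGroup.iff_card]
      have h3 : orderOf (x : G) ∣ p ^ k := orderOf_dvd_of_pow_eq_one (congrArg Subtype.val hk)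
      obtain ⟨j, -, hj⟩ := (Nat.dvd_prime_pow hp).1 h3
      exact ⟨j, by rw [Nat.card_zpowers, hj]⟩
    obtain ⟨P, hP, hxP⟩ := exists_isSylowIn_ge (Subgroup.zpowers_le.2 x.2) hxp
    have h4 := sigma_sylow_le_commutator hG hU hM (h2 hpπ) hP (hxP (Subgroup.mem_zpowers _))
    rw [← Subgroup.map_subtype_commutator] at h4
    obtain ⟨y, hy, hyx⟩ := h4
    rwa [Subtype.ext hyx] at hy

/-- relative index of the image of a subgroup of `↥M`. -/
theorem relIndex_map_subtype (M : Subgroup G) (K : Subgroup M) :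
    (K.map M.subtype).relIndex M = K.index := by
  rw [Subgroup.relIndex, Subgroup.subgroupOf, Subgroup.comap_map_eq_self_of_injective M.subtype_injective]

theorem sigma_not_dvd_index [Finite G] {M : Subgroup G} {p : ℕ} [Fact p.Prime]
    (hp : p ∈ Cfsg.sigma M) : ¬ p ∣ M.index := by
  obtain ⟨P, hP, -⟩ := exists_isSylowIn_ge (bot_le : (⊥ : Subgroup G) ≤ M) (IsPGroup.of_bot (p := p))
  have h1 := (sigma_isSylowIn_top hp hP).2.2
  rw [Subgroup.relIndex_top_right, ← Subgroup.relIndex_mul_index hP.1] at h1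
  exact fun h => h1 (Dvd.dvd.mul_left h _)

/-- Hall property of `O_π(M)` in `M` and in `G`, for `α(M) ⊆ π ⊆ σ(M)`. -/
theorem piCoreOf_hall [Finite G] (hG : Cfsg.IsMinSimpleOddOrder G) (hU : UT G)
    {M : Subgroup G} (hM : IsCoatom M) (π : Set ℕ) (h1 : Cfsg.alpha M ⊆ π) (h2 : π ⊆ Cfsg.sigma M) :
    Cfsg.IsPiHallOf π ((Cfsg.piCore π M).map M.subtype) M ∧
      Cfsg.IsPiHall π ((Cfsg.piCore π M).map M.subtype) := by
  have h3 := (hall_core_of_coatom hG hU hM π h1 h2).1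
  have hprimes : ∀ p : ℕ, p.Prime → p ∣ Nat.card ((Cfsg.piCore π M).map M.subtype) → p ∈ π := by
    intro p hp hd
    rw [Subgroup.card_map_of_injective M.subtype_injective] at hd
    exact Cfsg.Agent.Lib.Helper23.piCore_primes π M p hp hd
  refine ⟨⟨Subgroup.map_subtype_le _, hprimes, ?_⟩, hprimes, ?_⟩
  · intro p hp hpπ
    rw [relIndex_map_subtype]
    exact h3 p hp hpπ
  · intro p hp hpπ hd
    haveI : Fact p.Prime := ⟨hp⟩
    rw [← Subgroup.relIndex_mul_index (Subgroup.map_subtype_le _), relIndex_map_subtype] at hd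
    rcases (Nat.Prime.dvd_mul hp).1 hd with h | h
    · exact h3 p hp hpπ h
    · exact sigma_not_dvd_index (h2 hpπ) h

theorem piCore_mono {H : Type*} [Group H] {π ρ : Set ℕ} (h : π ⊆ ρ) :
    Cfsg.piCore π H ≤ Cfsg.piCore ρ H := by
  apply sSup_le_sSup
  rintro N ⟨hN, hp⟩
  exact ⟨hN, fun p hpp hd => h (hp p hpp hd)⟩

/-- A Hall `π`-subgroup `N` of `M` contained in a `π`-subgroup `S` of `M` equals `S`. -/
theorem IsPiHallOf_eq_of_le {π : Set ℕ} {N S M : Subgroup G} (hN : Cfsg.IsPiHallOf π N M)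
    (hNS : N ≤ S) (hSM : S ≤ M) (hS : ∀ p : ℕ, p.Prime → p ∣ Nat.card S → p ∈ π) : N = S := by
  apply le_antisymm hNS
  rw [← Subgroup.relIndex_eq_one]
  by_contra h
  obtain ⟨q, hq, hqd⟩ := Nat.exists_prime_and_dvd h
  have h1 : q ∈ π := hS q hq (hqd.trans (Subgroup.relIndex_dvd_card N S))
  apply hN.2.2 q hq h1
  rw [← Subgroup.relIndex_mul_relIndex N S M hNS hSM]
  exact Dvd.dvd.mul_right hqd _

theorem map_commutator_le_fitting [Finite G] (hG : Cfsg.IsMinSimpleOddOrder G) (hU : UT G)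
    {M : Subgroup G} (hM : IsCoatom M) (π : Set ℕ) (h1 : Cfsg.alpha M ⊆ π) (h2 : π ⊆ Cfsg.sigma M) :
    Group.IsNilpotent ↥((commutator ↥M).map (QuotientGroup.mk' (Cfsg.piCore π ↥M))) := by
  apply isNilpotent_of_le (F := Cfsg.fittingSubgroup _) _
    Cfsg.Agent.Lib.Helper1.fittingSubgroup_isNilpotent
  refine le_trans ?_ (hall_core_of_coatom hG hU hM π h1 h2).2.2
  rw [commutator_def, Subgroup.map_commutator, commutator_def]
  exact Subgroup.commutator_mono le_top le_top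

end Cfsg.Agent.Lib.Helper24
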