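/-
Helper library (helper24): Bender–Glauberman Section 10, Lemmas 10.3 – 10.6.
-/
import Cfsg.Agent.Lib.Helper24.BG10b
import Cfsg.Agent.Lib.Helper22.PiCoreOf
import Cfsg.Agent.Lib.Helper1.CoprimeSylow
import Cfsg.Agent.Lib.Helper23.Trans3
import Cfsg.Agent.S0636
import Cfsg.Agent.Lib.Helper24.Rank2Cube

set_option autoImplicit false
set_option linter.unusedSimpArgs false
set_option linter.unusedVariables false
set_option linter.style.haveILetI false

namespace Cfsg.Agent.Lib.Helper24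

open Cfsg.Agent.Lib.Helper34
open scoped commutatorElement

theorem isCyclic_of_pRankLE_one {R : Type*} [Group R] [Finite R] {p : ℕ} [Fact p.Prime] (hp : p ≠ 2)
    (hR : IsPGroup p R) (hr : Cfsg.PRankLE p 1 R) : IsCyclic R := by
  have hpp : p.Prime := Fact.out
  by_contra hnc
  have h1 : ¬ IsCyclic (⊤ : Subgroup R) := fun h =>
    hnc (isCyclic_of_surjective (⊤ : Subgroup R).subtype (fun g => ⟨⟨g, trivial⟩, rfl⟩))
  obtain ⟨A, -, -, hA, hcard⟩ := Cfsg.Agent.S0636.result hp hR ⊤ h1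
  have h2 := hr A hA.1 hA.2
  rw [hcard] at h2
  exact absurd h2 (not_le.2 (Nat.pow_lt_pow_right hpp.one_lt (by norm_num)))

theorem isZGroup_of_rankLE_one {K : Type*} [Group K] [Finite K] (hodd : Odd (Nat.card K))
    (hr : Cfsg.RankLE 1 K) : IsZGroup K := by
  refine ⟨fun q hq Q => ?_⟩
  haveI : Fact q.Prime := ⟨hq⟩
  by_cases hq2 : q = 2
  · subst hq2
    obtain ⟨k, hk⟩ := IsPGroup.iff_card.1 Q.2
    have h1 : Odd (Nat.card Q) := Odd.of_dvd_nat hodd (Subgroup.card_subgroup_dvd_card _)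
    have hk0 : k = 0 := by
      by_contra h
      rw [hk] at h1
      exact (Nat.not_even_iff_odd.2 h1) ((Nat.even_pow.2 ⟨even_two, h⟩))
    rw [hk0, pow_zero] at hk
    haveI : Subsingleton Q := (Nat.card_eq_one_iff_unique.1 hk).1
    exact isCyclic_of_subsingleton
  · exact isCyclic_of_pRankLE_one hq2 Q.2
      (Cfsg.Agent.Lib.Helper23.pRankLE_of_injective q 1 (Q : Subgroup K).subtype
        (Subgroup.subtype_injective _) (hr q hq))

variable {G : Type*} [Group G]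

theorem centralizer_zpowers_eq (x : G) :
    Subgroup.centralizer ((Subgroup.zpowers x : Subgroup G) : Set G) = Subgroup.centralizer {x} := by
  rw [Subgroup.zpowers_eq_closure, Subgroup.centralizer_closure]

theorem isPGroup_of_exponent {p : ℕ} {F : Subgroup G} (h : ∀ a ∈ F, a ^ p = 1) : IsPGroup p F :=
  fun a => ⟨1, by rw [pow_one]; exact Subtype.ext (h a a.2)⟩

/-- an abelian subgroup centralizes each of its subgroups. -/
theorem le_centralizer_of_comm {A B : Subgroup G} (hB : IsMulCommutative B) (hAB : A ≤ B) :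
    B ≤ Subgroup.centralizer (A : Set G) := by
  intro b hb
  rw [Subgroup.mem_centralizer_iff]
  intro a ha
  exact congrArg Subtype.val (hB.is_comm.comm ⟨a, hAB ha⟩ ⟨b, hb⟩)

/-- `p ^ k < |F|` for a `p`-group `F` gives `p ^ (k+1) ≤ |F|`. -/
theorem pow_succ_le_card_of_lt [Finite G] {p k : ℕ} [Fact p.Prime] {F : Subgroup G} (hF : IsPGroup p F)
    (h : p ^ k < Nat.card F) : p ^ (k + 1) ≤ Nat.card F := by
  have hp : p.Prime := Fact.out
  obtain ⟨j, hj⟩ := IsPGroup.iff_card.1 hF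
  rw [hj] at h ⊢
  exact Nat.pow_le_pow_right hp.pos ((Nat.pow_lt_pow_iff_right hp.one_lt).1 h)

theorem dvd_card_of_lt [Finite G] {p k : ℕ} [Fact p.Prime] {F : Subgroup G} (hF : IsPGroup p F)
    (h : p ^ k < Nat.card F) : p ∣ Nat.card F := by
  have hp : p.Prime := Fact.out
  obtain ⟨j, hj⟩ := IsPGroup.iff_card.1 hF
  rw [hj] at h ⊢
  have : k < j := (Nat.pow_lt_pow_iff_right hp.one_lt).1 h
  exact dvd_pow_self p (by omega)

/-- **BG Lemma 10.3.** -/
theorem cent_alpha'_uniq [Finite G] (hG : Cfsg.IsMinSimpleOddOrder G) (hU : UT G) {M : Subgroup G}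
    (hM : IsCoatom M) (X : Subgroup G) (hXM : X ≤ M)
    (hXα : ∀ p : ℕ, p.Prime → p ∣ Nat.card X → p ∉ Cfsg.alpha M)
    (hr : ¬ Cfsg.RankLE 1 ↥(Cfsg.alphaCore M ⊓ Subgroup.centralizer (X : Set G))) :
    Cfsg.InUniqueMaximal (M ⊓ Subgroup.centralizer (X : Set G)) := by
  have hCtop : M ⊓ Subgroup.centralizer (X : Set G) ≠ ⊤ := ne_top_of_le_ne_top hM.1 inf_le_left
  unfold Cfsg.RankLE at hr
  push Not at hr
  obtain ⟨p, hp, hrp⟩ := hr
  haveI : Fact p.Prime := ⟨hp⟩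
  obtain ⟨B, hBle, hBc, hBp, hBcard⟩ := exists_of_not_pRankLE hrp
  set Ma := Cfsg.alphaCore M with hMa
  have hMaM : Ma ≤ M := Cfsg.Agent.Lib.Helper22.piCoreOf_le (Cfsg.alpha M) M
  have hMaN : M ≤ Subgroup.normalizer (Ma : Set G) :=
    Cfsg.Agent.Lib.Helper22.le_normalizer_piCoreOf (Cfsg.alpha M) M
  have hMap : ∀ q : ℕ, q.Prime → q ∣ Nat.card Ma → q ∈ Cfsg.alpha M :=
    Cfsg.Agent.Lib.Helper22.piCoreOf_primes (Cfsg.alpha M) M
  have hBpg : IsPGroup p B := isPGroup_of_exponent hBp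
  have hBMa : B ≤ Ma := hBle.trans inf_le_left
  have hBX : B ≤ Subgroup.centralizer (X : Set G) := hBle.trans inf_le_right
  have hXB : X ≤ Subgroup.centralizer (B : Set G) := Subgroup.le_centralizer_iff.1 hBX
  have hpα : p ∈ Cfsg.alpha M :=
    hMap p hp ((dvd_card_of_lt hBpg hBcard).trans (Subgroup.card_dvd_of_le hBMa))
  have hp2 : p ≠ 2 := MS_prime_ne_two hG (dvd_card_of_lt hBpg hBcard)
  have hcopX : (Nat.card X).Coprime p :=
    ((Nat.Prime.coprime_iff_not_dvd hp).2 (fun h => hXα p hp h hpα)).symm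
  have hcop : (Nat.card X).Coprime (Nat.card Ma) :=
    Nat.Coprime.symm (Nat.coprime_of_dvd (fun q hq h1 h2 => hXα q hq h2 (hMap q hq h1)))
  obtain ⟨P, hBP, hPMa, hPp, hPi, hXP⟩ :=
    Cfsg.Agent.Lib.Helper1.invariant_pSubgroup_le_invariant_sylow X Ma (hXM.trans hMaN) hcop
      (Or.inl (MS_solvable hG (ne_top_of_le_ne_top hM.1 hXM))) p B hBMa hBpg
      (hXB.trans (centralizer_le_normalizer' B))
  have hα : Cfsg.alpha M ⊆ Cfsg.sigma M := fun p hp => alpha_subset_sigma hG hU hM hp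
  have hHall := (piCoreOf_hall hG hU hM (Cfsg.alpha M) subset_rfl hα).1.2.2 p hp hpα
  have hPM : IsSylowIn p P M := by
    refine ⟨hPMa.trans hMaM, hPp, ?_⟩
    rw [← Subgroup.relIndex_mul_relIndex P Ma M hPMa hMaM]
    intro h
    rcases (Nat.Prime.dvd_mul hp).1 h with h | h
    · exact hPi h
    · exact hHall h
  have hrP : ¬ Cfsg.PRankLE p 2 P := fun h => hpα.2 (pRankLE_of_isSylowIn hPM h)
  by_cases hgood : ∀ x ∈ P, x ∈ Subgroup.centralizer (B : Set G) → x ^ p = 1 → x ∈ B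
  · have h1 := le_centralizer_of_centralizes_good p hp2 P B X hPp hBP hXP hcopX hgood hXB
    exact inUniqueMaximal_mono (hU.of_rank3 hp (MS_isPGroup_ne_top hG hPp) hrP) (le_inf hPM.1 h1) hCtop
  · push Not at hgood
    obtain ⟨x, hxP, hxc, hxp, hxB⟩ := hgood
    have hlt : B < adjoin B x hxc :=
      lt_of_le_of_ne (le_adjoin B x hxc) (fun h => hxB (h ▸ self_mem_adjoin B x hxc))
    have h1 : ¬ Cfsg.PRankLE p 2 (Subgroup.centralizer (B : Set G)) := by
      apply not_pRankLE_of_le (F := adjoin B x hxc)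
        (le_centralizer_of_comm (adjoin_comm hxc hBc) (le_adjoin B x hxc)) (adjoin_comm hxc hBc)
        (adjoin_pow hxc p hBp hxp)
      exact lt_of_le_of_lt (pow_succ_le_card_of_lt hBpg hBcard) (card_lt_of_lt hlt)
    have h2 : ¬ Cfsg.PRankLE p 1 B := not_pRankLE_of_le le_rfl hBc hBp hBcard
    exact inUniqueMaximal_mono (hU.of_rank2_cent hp hp (MS_isPGroup_ne_top hG hBpg) h2 h1)
      (le_inf (hBMa.trans hMaM) hBX) hCtop

/-- A nontrivial `p`-subgroup has a central element of order `p`. -/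
theorem exists_central_order_p [Finite G] {p : ℕ} [Fact p.Prime] {P : Subgroup G} (hP : IsPGroup p P)
    (hne : P ≠ ⊥) : ∃ z ∈ P, z ∈ Subgroup.centralizer (P : Set G) ∧ z ≠ 1 ∧ z ^ p = 1 := by
  obtain ⟨f, hfP, hf1, hfc⟩ := exists_central_mod (E := ⊥) hP.isNilpotent (le_refl P)
    Subgroup.le_normalizer (fun h => hne (le_bot_iff.1 h))
  have hfC : f ∈ Subgroup.centralizer (P : Set G) := by
    rw [Subgroup.mem_centralizer_iff]
    intro g hg
    exact (commutatorElement_eq_one_iff_mul_comm.1 (Subgroup.mem_bot.1 (hfc g hg))).symm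
  obtain ⟨m, hm⟩ := hP ⟨f, hfP⟩
  have hm' : f ^ p ^ m = 1 := congrArg Subtype.val hm
  obtain ⟨j, hj1, hj2⟩ := exists_pow_not_mem p ⊥ f hf1 ⟨m, by rw [hm']; exact Subgroup.one_mem _⟩
  exact ⟨f ^ p ^ j, P.pow_mem hfP _, Subgroup.pow_mem _ hfC _,
    fun h => hj1 (Subgroup.mem_bot.2 h), Subgroup.mem_bot.1 hj2⟩

theorem sylow_ne_bot_of_dvd [Finite G] {p : ℕ} [Fact p.Prime] {P M : Subgroup G}
    (hP : IsSylowIn p P M) (hd : p ∣ Nat.card M) : P ≠ ⊥ := by
  rintro rfl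
  apply hP.2.2
  rwa [Subgroup.relIndex_bot_left]

/-- **BG Lemma 10.4.** -/
theorem exists_central_not_uniq [Finite G] (hG : Cfsg.IsMinSimpleOddOrder G) (hU : UT G)
    {M : Subgroup G} (hM : IsCoatom M) {p : ℕ} [Fact p.Prime] (hpM : p ∣ Nat.card M)
    (hp : p ∉ Cfsg.sigma M) {P : Subgroup G} (hP : IsSylowIn p P M) :
    ∃ x ∈ P, x ∈ Subgroup.centralizer (P : Set G) ∧ orderOf x = p ∧
      IsZGroup ↥(Cfsg.alphaCore M ⊓ Subgroup.centralizer ({x} : Set G)) ∧
      ¬ (Subgroup.centralizer ({x} : Set G) ≤ M ∧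
        ∀ L : Subgroup G, IsCoatom L → Subgroup.centralizer ({x} : Set G) ≤ L → L = M) := by
  have hpp : p.Prime := Fact.out
  haveI := MS_simple hG
  have hPbot : P ≠ ⊥ := sylow_ne_bot_of_dvd hP hpM
  have step1 : ∃ x ∈ P, x ∈ Subgroup.centralizer (P : Set G) ∧ orderOf x = p ∧
      ¬ (Subgroup.centralizer ({x} : Set G) ≤ M ∧
        ∀ L : Subgroup G, IsCoatom L → Subgroup.centralizer ({x} : Set G) ≤ L → L = M) := by
    by_contra hcon
    push Not at hcon
    apply hp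
    refine mem_sigma_iff.2 ⟨hpM, P, hP, ?_⟩
    obtain ⟨z, hzP, hzC, hz1, hzp⟩ := exists_central_order_p hP.2.1 hPbot
    have hz := hcon z hzP hzC (orderOf_eq_prime hzp hz1)
    intro g hg
    have h1P : g * z * g⁻¹ ∈ P := (Subgroup.mem_normalizer_iff.1 hg z).1 hzP
    have h1C : g * z * g⁻¹ ∈ Subgroup.centralizer (P : Set G) :=
      (Subgroup.le_normalizer_iff.1 (normalizer_le_normalizer_centralizer P)) g hg z hzC
    have h1o : orderOf (g * z * g⁻¹) = p := by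
      apply orderOf_eq_prime
      · rw [conj_pow, hzp]; group
      · intro h
        apply hz1
        have h2 : z = g⁻¹ * (g * z * g⁻¹) * g := by group
        rw [h2, h]; group
    have h1 := hcon _ h1P h1C h1o
    apply MS_mem_of_cj_eq hG hM
    apply h1.2 _ (isCoatom_cj hM g)
    intro y hy
    rw [mem_map_conj]
    apply hz.1
    rw [Subgroup.mem_centralizer_singleton_iff] at hy ⊢
    calc g⁻¹ * y * g * z = g⁻¹ * (y * (g * z * g⁻¹)) * g := by group
      _ = g⁻¹ * ((g * z * g⁻¹) * y) * g := by rw [hy]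
      _ = z * (g⁻¹ * y * g) := by group
  obtain ⟨x, hxP, hxC, hxo, hx⟩ := step1
  refine ⟨x, hxP, hxC, hxo, ?_, hx⟩
  by_contra hZ
  have hr : ¬ Cfsg.RankLE 1 ↥(Cfsg.alphaCore M ⊓ Subgroup.centralizer ({x} : Set G)) := fun h =>
    hZ (isZGroup_of_rankLE_one (MS_odd hG _) h)
  have hx1 : x ≠ 1 := by
    rintro rfl
    rw [orderOf_one] at hxo
    exact hpp.one_lt.ne hxo
  have h1 := cent_alpha'_uniq hG hU hM (Subgroup.zpowers x) (Subgroup.zpowers_le.2 (hP.1 hxP))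
    (by
      intro q hq hqd hqα
      rw [Nat.card_zpowers, hxo] at hqd
      rw [(Nat.prime_dvd_prime_iff_eq hq hpp).1 hqd] at hqα
      exact hp (alpha_subset_sigma hG hU hM hqα))
    (by rw [centralizer_zpowers_eq]; exact hr)
  rw [centralizer_zpowers_eq] at h1
  have hCtop : Subgroup.centralizer ({x} : Set G) ≠ ⊤ :=
    Cfsg.Agent.Lib.Helper23.centralizer_singleton_ne_top_of_simple hG.2.2.1 hx1
  apply hx
  refine ⟨le_of_inUniqueMaximal h1 hM inf_le_left hCtop inf_le_right, fun L hL hCL => ?_⟩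
  exact eq_of_inUniqueMaximal h1 hM inf_le_left hL (inf_le_right.trans hCL)

/-- **BG Lemma 10.5**, first part. -/
theorem sigma'_rank2_max [Finite G] (hG : Cfsg.IsMinSimpleOddOrder G) (hU : UT G)
    {M : Subgroup G} (hM : IsCoatom M) {p : ℕ} [Fact p.Prime] (hp : p ∉ Cfsg.sigma M)
    {A : Subgroup G} (hAM : A ≤ M) (hA : Cfsg.IsElementaryAbelian p A) (hcard : Nat.card A = p ^ 2)
    {B : Subgroup G} (hB : Cfsg.IsElementaryAbelian p B) (hAB : A ≤ B) : B = A := by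
  have hpp : p.Prime := Fact.out
  by_contra hne
  have hlt : A < B := lt_of_le_of_ne hAB (Ne.symm hne)
  have hApg : IsPGroup p A := isPGroup_of_exponent hA.2
  have h1 : ¬ Cfsg.PRankLE p 2 (Subgroup.centralizer (A : Set G)) :=
    not_pRankLE_of_le (F := B) (le_centralizer_of_comm hB.1 hAB) hB.1 hB.2
      (by rw [← hcard]; exact card_lt_of_lt hlt)
  have h2 : ¬ Cfsg.PRankLE p 1 A := not_pRankLE_of_le le_rfl hA.1 hA.2
    (by rw [hcard]; exact Nat.pow_lt_pow_right hpp.one_lt (by norm_num))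
  have hAU := hU.of_rank2_cent hpp hpp (MS_isPGroup_ne_top hG hApg) h2 h1
  obtain ⟨P, hP, hAP⟩ := exists_isSylowIn_ge hAM hApg
  have hAbot : A ≠ ⊥ := by
    rintro rfl
    rw [Subgroup.card_bot] at hcard
    exact absurd hcard.symm (Nat.one_lt_pow (by norm_num) hpp.one_lt).ne'
  have hPbot : P ≠ ⊥ := fun h => hAbot (le_bot_iff.1 (h ▸ hAP))
  apply hp
  refine mem_sigma_iff.2 ⟨?_, P, hP, le_of_inUniqueMaximal hAU hM hAM
    (MS_normalizer_ne_top hG hPbot (MS_isPGroup_ne_top hG hP.2.1)) (hAP.trans Subgroup.le_normalizer)⟩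
  refine Dvd.dvd.trans ?_ (Subgroup.card_dvd_of_le hAM)
  rw [hcard]; exact dvd_pow_self p (by norm_num)

/-- An elementary abelian subgroup of order `p ^ 2` in a group of `p`-rank exactly 2. -/
theorem exists_elemAb_sq [Finite G] {p : ℕ} [Fact p.Prime] {M : Subgroup G}
    (hr2 : Cfsg.PRankLE p 2 M) (hr1 : ¬ Cfsg.PRankLE p 1 M) :
    ∃ A : Subgroup G, A ≤ M ∧ Cfsg.IsElementaryAbelian p A ∧ Nat.card A = p ^ 2 := by
  obtain ⟨F, hFM, hFc, hFp, hcard⟩ := exists_of_not_pRankLE hr1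
  exact ⟨F, hFM, ⟨hFc, hFp⟩, le_antisymm ((pRankLE_iff M).1 hr2 F hFM hFc hFp)
    (pow_succ_le_card_of_lt (isPGroup_of_exponent hFp) hcard)⟩

/-- **BG Lemma 10.5**, second part. -/
theorem sigma'_rank2_not_ideal [Finite G] (hG : Cfsg.IsMinSimpleOddOrder G) (hU : UT G)
    {M : Subgroup G} (hM : IsCoatom M) {p : ℕ} [Fact p.Prime] (hp : p ∉ Cfsg.sigma M)
    (hr2 : Cfsg.PRankLE p 2 M) (hr1 : ¬ Cfsg.PRankLE p 1 M) : ¬ Cfsg.IsIdealPrime p G := by
  rintro ⟨-, -, h⟩
  obtain ⟨A, hAM, hA, hcard⟩ := exists_elemAb_sq hr2 hr1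
  obtain ⟨S, hS⟩ := (isPGroup_of_exponent hA.2).exists_le_sylow
  obtain ⟨B, -, hB, hAB⟩ := h S A hS hA hcard
  exact hAB.ne (sigma'_rank2_max hG hU hM hp hAM hA hcard hB hAB.le).symm

theorem isElementaryAbelian_of_card_prime {p : ℕ} [Fact p.Prime] {X : Subgroup G}
    (hX : Nat.card X = p) : Cfsg.IsElementaryAbelian p X := by
  haveI := isCyclic_of_prime_card hX
  refine ⟨IsCyclic.isMulCommutative, fun a ha => ?_⟩
  have h1 : (⟨a, ha⟩ : X) ^ Nat.card X = 1 := pow_card_eq_one'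
  rw [hX] at h1
  exact congrArg Subtype.val h1

/-- **BG Lemma 10.6.** -/
theorem sigma'_norm_mmax_rank2 [Finite G] (hG : Cfsg.IsMinSimpleOddOrder G) (hU : UT G)
    {M : Subgroup G} (hM : IsCoatom M) {p : ℕ} [Fact p.Prime] (hp : p ∉ Cfsg.sigma M)
    {X : Subgroup G} (hX : Nat.card X = p) (hNX : Subgroup.normalizer (X : Set G) ≤ M) :
    (Cfsg.PRankLE p 2 M ∧ ¬ Cfsg.PRankLE p 1 M) ∧ ¬ Cfsg.IsIdealPrime p G ∧
      ∃ A : Subgroup G, Cfsg.IsElementaryAbelian p A ∧ Nat.card A = p ^ 2 ∧ X ≤ A := by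
  have hpp : p.Prime := Fact.out
  have hXM : X ≤ M := Subgroup.le_normalizer.trans hNX
  have hXe := isElementaryAbelian_of_card_prime hX
  have hXpg : IsPGroup p X := isPGroup_of_exponent hXe.2
  have hpM : p ∣ Nat.card M := hX ▸ Subgroup.card_dvd_of_le hXM
  obtain ⟨P, hP, hXP⟩ := exists_isSylowIn_ge hXM hXpg
  have hPbot : P ≠ ⊥ := sylow_ne_bot_of_dvd hP hpM
  obtain ⟨z, hzP, hzC, hz1, hzp⟩ := exists_central_order_p hP.2.1 hPbot
  have hzcard : Nat.card (Subgroup.zpowers z) = p := by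
    rw [Nat.card_zpowers]; exact orderOf_eq_prime hzp hz1
  have hr2 : Cfsg.PRankLE p 2 M := by
    by_contra h
    exact hp (alpha_subset_sigma hG hU hM ⟨hpp, h⟩)
  have hzcent : ∀ Y : Subgroup G, Y ≤ P → z ∈ Subgroup.centralizer (Y : Set G) := fun Y hY =>
    Subgroup.centralizer_le hY hzC
  have hr1 : ¬ Cfsg.PRankLE p 1 M := by
    intro hr1
    -- the subgroup of order `p` of `P` is unique
    have huniq : ∀ Y : Subgroup G, Y ≤ P → Nat.card Y = p → Y = Subgroup.zpowers z := by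
      intro Y hYP hY
      have hYe := isElementaryAbelian_of_card_prime hY
      have h1 := (pRankLE_iff M).1 hr1 (adjoin Y z (hzcent Y hYP))
        (adjoin_le _ (hYP.trans hP.1) (hP.1 hzP)) (adjoin_comm _ hYe.1) (adjoin_pow _ p hYe.2 hzp)
      rw [pow_one, ← hY] at h1
      have h2 : Y = adjoin Y z (hzcent Y hYP) := Subgroup.eq_of_le_of_card_ge (le_adjoin _ _ _) h1
      have h3 : z ∈ Y := by rw [h2]; exact self_mem_adjoin _ _ _
      exact (Subgroup.eq_of_le_of_card_ge (Subgroup.zpowers_le.2 h3) (by rw [hzcard, hY])).symm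
    apply hp
    refine mem_sigma_iff.2 ⟨hpM, P, hP, le_trans ?_ hNX⟩
    intro g hg
    apply mem_normalizer_of_map_conj_eq
    have h1 : cj g X ≤ P := by
      have h2 := cj_mono g hXP
      rwa [show cj g P = P from map_conj_eq_self_of_mem_normalizer hg] at h2
    rw [huniq X hXP hX]
    conv_lhs => rw [← huniq X hXP hX]
    exact huniq _ h1 (by rw [card_map_conj]; exact hX)
  refine ⟨⟨hr2, hr1⟩, sigma'_rank2_not_ideal hG hU hM hp hr2 hr1, ?_⟩
  by_cases hzX : z ∈ X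
  · obtain ⟨F, hFM, hF, hFcard⟩ := exists_elemAb_sq hr2 hr1
    obtain ⟨n, hn, hle⟩ := hP.exists_conj_le hFM (isPGroup_of_exponent hF.2)
    have hF'e : Cfsg.IsElementaryAbelian p (cj n F) := by
      haveI := hF.1
      refine ⟨inferInstance, ?_⟩
      rintro _ ⟨a, ha, rfl⟩
      rw [← map_pow, hF.2 a ha, map_one]
    have hF'card : Nat.card (cj n F) = p ^ 2 := by rw [card_map_conj]; exact hFcard
    refine ⟨cj n F, hF'e, hF'card, ?_⟩
    have hXz : X = Subgroup.zpowers z :=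
      (Subgroup.eq_of_le_of_card_ge (Subgroup.zpowers_le.2 hzX) (by rw [hzcard, hX])).symm
    rw [hXz, Subgroup.zpowers_le]
    by_contra hzF
    have h1 := (pRankLE_iff M).1 hr2 (adjoin (cj n F) z (hzcent _ hle))
      (adjoin_le _ (hle.trans hP.1) (hP.1 hzP)) (adjoin_comm _ hF'e.1) (adjoin_pow _ p hF'e.2 hzp)
    have h2 : cj n F < adjoin (cj n F) z (hzcent _ hle) :=
      lt_of_le_of_ne (le_adjoin _ _ _) (fun h => hzF (h ▸ self_mem_adjoin _ _ _))
    have h3 := card_lt_of_lt h2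
    omega
  · have hlt : X < adjoin X z (hzcent X hXP) :=
      lt_of_le_of_ne (le_adjoin _ _ _) (fun h => hzX (h ▸ self_mem_adjoin _ _ _))
    have he : Cfsg.IsElementaryAbelian p (adjoin X z (hzcent X hXP)) :=
      ⟨adjoin_comm _ hXe.1, adjoin_pow _ p hXe.2 hzp⟩
    refine ⟨_, he, le_antisymm ?_ ?_, le_adjoin _ _ _⟩
    · exact (pRankLE_iff M).1 hr2 _ (adjoin_le _ hXM (hP.1 hzP)) he.1 he.2
    · apply pow_succ_le_card_of_lt (isPGroup_of_exponent he.2)
      rw [pow_one, ← hX]; exact card_lt_of_lt hlt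

end Cfsg.Agent.Lib.Helper24
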