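import Mathlib

/-!
# BG 3.6: a combinatorial orbit lemma
-/

set_option autoImplicit false
set_option linter.unusedSectionVars false

namespace Cfsg.Agent.Lib.Helper24

open Subgroup MulAction

/-- `P` a `p`-group normalized by `R` of prime order `r ≠ p` (`p`, `r` odd), acting on a set.
If every `P`-translate of `D` is an `R`-translate of `D` or the `R`-fixed point `A`, and `R` moves
`D`, then `P` fixes `D`. -/
theorem orbit_lemma {Γ S : Type*} [Group Γ] [MulAction Γ S] {p r : ℕ} (hp : p.Prime)
    (hr : r.Prime) (hpr : p ≠ r) (hp2 : Odd p) (hr2 : Odd r)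
    (P R : Subgroup Γ) [Finite P] (hP : IsPGroup p P) (hR : Nat.card R = r)
    (hRP : R ≤ normalizer (P : Set Γ))
    (D A : S) (hA : ∀ g ∈ R, g • A = A) (hD : ∃ g ∈ R, g • D ≠ D)
    (H : ∀ u ∈ P, u • D = A ∨ ∃ g ∈ R, u • D = g • D) : ∀ u ∈ P, u • D = D := by
  classical
  have : Fact p.Prime := ⟨hp⟩
  have hRfin : Finite R := Nat.finite_of_card_ne_zero (by rw [hR]; exact hr.pos.ne')
  have : Fact (Nat.card R).Prime := ⟨hR ▸ hr⟩
  -- the R-orbit has r elements
  have hstab : stabilizer R D = ⊥ := by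
    rcases Subgroup.eq_bot_or_eq_top_of_prime_card (stabilizer R D) with h | h
    · exact h
    · exfalso
      obtain ⟨g, hg, hgD⟩ := hD
      have : (⟨g, hg⟩ : R) ∈ stabilizer R D := by rw [h]; trivial
      exact hgD this
  have hcardO : Nat.card (orbit R D) = r := by
    rw [Nat.card_congr (orbitEquivQuotientStabilizer R D), hstab]
    rw [← hR]
    exact Nat.card_congr (QuotientGroup.quotientBot (G := R)).toEquiv
  have hmemO : ∀ s : S, s ∈ orbit R D ↔ ∃ g ∈ R, s = g • D := by
    intro s
    constructor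
    · rintro ⟨g, rfl⟩
      exact ⟨g, g.2, rfl⟩
    · rintro ⟨g, hg, rfl⟩
      exact ⟨⟨g, hg⟩, rfl⟩
  have hAO : A ∉ orbit R D := by
    intro h
    obtain ⟨g, hg, hgA⟩ := (hmemO A).1 h
    have h1 : D = A := by
      have : g⁻¹ • A = D := by rw [hgA, inv_smul_smul]
      rw [← this]; exact hA _ (R.inv_mem hg)
    obtain ⟨g', hg', hgD⟩ := hD
    exact hgD (by rw [h1]; exact hA _ hg')
  have hconj : ∀ g ∈ R, ∀ u ∈ P, g * u * g⁻¹ ∈ P := fun g hg u hu =>
    (mem_normalizer_iff.1 (hRP hg) u).1 hu
  by_cases hcase : ∃ u0 ∈ P, u0 • D = A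
  · exfalso
    obtain ⟨u0, hu0, hu0D⟩ := hcase
    have horb : orbit P D = insert A (orbit R D) := by
      ext s
      constructor
      · rintro ⟨u, rfl⟩
        rcases H u u.2 with h | h
        · exact Set.mem_insert_iff.2 (Or.inl h)
        · exact Set.mem_insert_iff.2 (Or.inr ((hmemO _).2 h))
      · intro hs
        rcases Set.mem_insert_iff.1 hs with h | h
        · exact ⟨⟨u0, hu0⟩, by rw [h]; exact hu0D⟩
        · obtain ⟨g, hg, rfl⟩ := (hmemO s).1 h
          refine ⟨⟨g * u0⁻¹ * g⁻¹ * u0, P.mul_mem (hconj g hg _ (P.inv_mem hu0)) hu0⟩, ?_⟩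
          change (g * u0⁻¹ * g⁻¹ * u0) • D = g • D
          rw [mul_smul, hu0D, mul_smul, hA _ (R.inv_mem hg), mul_smul, ← hu0D, inv_smul_smul]
    have hfinO : Finite (orbit R D) := Nat.finite_of_card_ne_zero (by rw [hcardO]; exact hr.pos.ne')
    have hcard : Nat.card (orbit P D) = r + 1 := by
      rw [horb, Nat.card_coe_set_eq, Set.ncard_insert_of_notMem hAO (Set.toFinite _),
        ← Nat.card_coe_set_eq, hcardO]
    have hfinP : Finite (orbit P D) := Nat.finite_of_card_ne_zero (by rw [hcard]; omega)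
    obtain ⟨n, hn⟩ := hP.card_orbit D
    rw [hcard] at hn
    have h1 : Odd (p ^ n) := hp2.pow
    rw [← hn] at h1
    exact (Nat.not_odd_iff_even.2 (hr2.add_one)) h1
  · push Not at hcase
    have H' : ∀ u ∈ P, ∃ g ∈ R, u • D = g • D := by
      intro u hu
      rcases H u hu with h | h
      · exact absurd h (hcase u hu)
      · exact h
    let T : SubMulAction P S :=
      { carrier := orbit R D
        smul_mem' := by
          intro u s hs
          obtain ⟨g, hg, rfl⟩ := (hmemO s).1 hs
          have h1 : g⁻¹ * u * g ∈ P := by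
            have := hconj g⁻¹ (R.inv_mem hg) u u.2
            simpa using this
          obtain ⟨g', hg', h2⟩ := H' _ h1
          refine (hmemO _).2 ⟨g * g', R.mul_mem hg hg', ?_⟩
          change (u : Γ) • g • D = _
          rw [mul_smul, ← h2, ← mul_smul, ← mul_smul]
          congr 1
          group }
    have hcardT : Nat.card T = r := hcardO
    have hfinT : Finite T := Nat.finite_of_card_ne_zero (by rw [hcardT]; exact hr.pos.ne')
    have hnd : ¬ p ∣ Nat.card T := by
      rw [hcardT]
      intro h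
      exact hpr ((Nat.prime_dvd_prime_iff_eq hp hr).1 h)
    obtain ⟨⟨s, hs⟩, hfix⟩ := hP.nonempty_fixed_point_of_prime_not_dvd_card T hnd
    obtain ⟨g, hg, rfl⟩ := (hmemO s).1 hs
    intro u hu
    have h1 := hfix ⟨g * u * g⁻¹, hconj g hg u hu⟩
    have h2 : (g * u * g⁻¹) • g • D = g • D := congrArg Subtype.val h1
    rw [← mul_smul] at h2
    have h3 : g * u * g⁻¹ * g = g * u := by group
    rw [h3, mul_smul] at h2
    exact smul_left_cancel g h2

end Cfsg.Agent.Lib.Helper24
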