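import Cfsg.Agent.Lib.Helper39.SLblk.K45
import Cfsg.Agent.Lib.Helper39.SLblk.L5
import Cfsg.Agent.Lib.Helper39.SLblk.Z
import Cfsg.Agent.Lib.Helper39.SLblk.S7
import Cfsg.Agent.Lib.Helper78.Osima
import Cfsg.Agent.Lib.Helper78.DefectZero
import Cfsg.Agent.Lib.Helper81.Schur
import Cfsg.Agent.Lib.Helper5.LinearCard

/-! The three `p`-blocks of `SL₂(q)`, `q` odd (S2439): generic lemmas (plan of helper39). -/

set_option autoImplicit false
set_option linter.unusedSectionVars false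
set_option linter.style.haveILetI false

namespace Cfsg.Agent.Lib.Helper24.SL2Blk

open Cfsg Cfsg.Agent.Lib Cfsg.Agent.Lib.Helper78 Cfsg.Agent.Lib.Helper39
  Cfsg.Agent.Lib.Helper39.SLblk

section generic

variable {G : Type*} [Group G]

/-- [T1] a central involution takes the value `± χ 1`. -/
theorem t1 (χ : IrrCharacter G) (z : G) (hz : z ∈ Subgroup.center G) (hz2 : z * z = 1) :
    (χ : G → ℂ) z = (χ : G → ℂ) 1 ∨ (χ : G → ℂ) z = - (χ : G → ℂ) 1 := by
  obtain ⟨χ, n, ρ, hρ, rfl⟩ := χ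
  haveI := hρ
  obtain ⟨c, hc⟩ := Helper81.schur_scalar ρ (ρ z) (fun g => by
      rw [← Module.End.mul_eq_comp, ← Module.End.mul_eq_comp, ← map_mul, ← map_mul,
        Subgroup.mem_center_iff.mp hz g])
  have hn : ((Module.finrank ℂ (Fin n → ℂ) : ℕ) : ℂ) ≠ 0 := by
    exact_mod_cast (Helper81.finrank_pos_of_irreducible ρ).ne'
  have h1 : ρ.character 1 = (Module.finrank ℂ (Fin n → ℂ) : ℂ) := by
    show LinearMap.trace ℂ _ (ρ 1) = _
    rw [map_one]
    exact LinearMap.trace_one ℂ _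
  have hz1 : ρ.character z = c * (Module.finrank ℂ (Fin n → ℂ) : ℂ) := by
    show LinearMap.trace ℂ _ (ρ z) = _
    rw [hc, map_smul, smul_eq_mul]
    congr 1
    exact LinearMap.trace_id ℂ _
  have hcc : c * c = 1 := by
    have h2 : ρ (z * z) = (c * c) • LinearMap.id := by
      rw [map_mul, hc]
      ext v
      simp [smul_smul]
    rw [hz2, map_one] at h2
    have h3 := congrArg (LinearMap.trace ℂ (Fin n → ℂ)) h2
    rw [map_smul, smul_eq_mul] at h3
    have e1 : LinearMap.trace ℂ (Fin n → ℂ) 1 = (Module.finrank ℂ (Fin n → ℂ) : ℂ) :=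
      LinearMap.trace_one ℂ _
    have e2 : LinearMap.trace ℂ (Fin n → ℂ) LinearMap.id = (Module.finrank ℂ (Fin n → ℂ) : ℂ) :=
      LinearMap.trace_id ℂ _
    rw [e1, e2] at h3
    have h4 : (c * c - 1) * (Module.finrank ℂ (Fin n → ℂ) : ℂ) = 0 := by linear_combination -h3
    rcases mul_eq_zero.1 h4 with h | h
    · linear_combination h
    · exact absurd h hn
  have hc' : c = 1 ∨ c = -1 := by
    have : (c - 1) * (c + 1) = 0 := by linear_combination hcc
    rcases mul_eq_zero.1 this with h | h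
    · left; linear_combination h
    · right; linear_combination h
  show ρ.character z = ρ.character 1 ∨ ρ.character z = - ρ.character 1
  rw [hz1, h1]
  rcases hc' with h | h
  · left; rw [h, one_mul]
  · right; rw [h]; ring

theorem centralChar_central (χ : G → ℂ) (z : G) (hz : z ∈ Subgroup.center G) :
    centralChar χ z = χ z / χ 1 := by
  unfold centralChar
  have : Subgroup.centralizer ({z} : Set G) = ⊤ := by
    rw [Subgroup.centralizer_eq_top_iff_subset]
    intro x hx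
    rw [Set.mem_singleton_iff] at hx
    rw [hx]; exact hz
  rw [this, Subgroup.index_top]
  simp

/-- [T2] -/
theorem t2_aux {p : ℕ} (M : Ideal AlgInt) (hM : IsPModular p M) (hp : p ≠ 2)
    (χ ψ : IrrCharacter G) (h : SameBlock M (χ : G → ℂ) (ψ : G → ℂ)) (z : G)
    (hz : z ∈ Subgroup.center G) (hz2 : z * z = 1)
    (h1 : (χ : G → ℂ) z = (χ : G → ℂ) 1) : (ψ : G → ℂ) z = (ψ : G → ℂ) 1 := by
  rcases t1 ψ z hz hz2 with h2 | h2
  · exact h2
  · exfalso
    have h3 := h z
    rw [centralChar_central _ z hz, centralChar_central _ z hz, h1, h2,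
      div_self (irr_one_ne_zero χ), neg_div, div_self (irr_one_ne_zero ψ)] at h3
    have h4 : MemLocalIdeal M ((2 : ℕ) : ℂ) := by
      have : ((2 : ℕ) : ℂ) = 1 - -1 := by norm_num
      rw [this]; exact h3
    rw [memLocalIdeal_natCast_iff hM] at h4
    exact hp ((Nat.prime_dvd_prime_iff_eq hM.1 Nat.prime_two).1 h4)

theorem t2 {p : ℕ} (M : Ideal AlgInt) (hM : IsPModular p M) (hp : p ≠ 2)
    (χ ψ : IrrCharacter G) (h : SameBlock M (χ : G → ℂ) (ψ : G → ℂ)) (z : G)
    (hz : z ∈ Subgroup.center G) (hz2 : z * z = 1) :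
    (χ : G → ℂ) z = (χ : G → ℂ) 1 ↔ (ψ : G → ℂ) z = (ψ : G → ℂ) 1 :=
  ⟨t2_aux M hM hp χ ψ h z hz hz2, t2_aux M hM hp ψ χ (sameBlock_symm h) z hz hz2⟩

/-- [T3] -/
theorem t3 [Finite G] (z : G) (hz : z ≠ 1) :
    ∃ χ : IrrCharacter G, (χ : G → ℂ) z ≠ (χ : G → ℂ) 1 := by
  classical
  have := Fintype.ofFinite G
  by_contra hcon
  push Not at hcon
  have h1 := sum_irr_one_mul (G := G) z
  have h2 := sum_irr_one_mul (G := G) 1
  rw [if_neg hz] at h1
  rw [if_pos rfl] at h2
  have h3 : ∑ ψ : IrrCharacter G, (ψ : G → ℂ) 1 * (ψ : G → ℂ) z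
      = ∑ ψ : IrrCharacter G, (ψ : G → ℂ) 1 * (ψ : G → ℂ) 1 :=
    Finset.sum_congr rfl fun ψ _ => by rw [hcon ψ]
  rw [h1, h2] at h3
  have : (Fintype.card G : ℂ) ≠ 0 := by exact_mod_cast Fintype.card_ne_zero
  exact this h3.symm

/-- a block of a character that is not of defect zero has non-zero defect. -/
theorem defect_ne_zero [Finite G] (p : ℕ) [Fact p.Prime] (M : Ideal AlgInt) (hM : IsPModular p M)
    (χ : IrrCharacter G) (hχ : p ∣ Nat.card G / charDegree (χ : G → ℂ)) :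
    blockDefect p (blockOf M (χ : G → ℂ)) ≠ 0 := by
  intro hdef
  have hpp : p.Prime := Fact.out
  have hG0 : Nat.card G ≠ 0 := (Nat.card_pos (α := G)).ne'
  have hmem : χ ∈ blockOf M (χ : G → ℂ) := mem_blockOf_self (pmod_isPrime hM) χ
  have hdef' : (Nat.card G).factorization p -
      sInf ((fun χ : IrrCharacter G => (charDegree (χ : G → ℂ)).factorization p) ''
        blockOf M (χ : G → ℂ)) = 0 := hdef
  have hle : sInf ((fun χ : IrrCharacter G => (charDegree (χ : G → ℂ)).factorization p) ''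
        blockOf M (χ : G → ℂ)) ≤ (charDegree (χ : G → ℂ)).factorization p :=
      Nat.sInf_le ⟨χ, hmem, rfl⟩
  exact (K1.not_dvd_div_iff hpp hG0 (irr_charDegree_dvd_card χ)).mpr (by omega) hχ

theorem three {T : Type*} (hT : Nat.card T = 3) (a b c : T) (hab : a ≠ b) (hac : a ≠ c)
    (hbc : b ≠ c) (x : T) : x = a ∨ x = b ∨ x = c := by
  classical
  have : Finite T := Nat.finite_of_card_ne_zero (by omega)
  have := Fintype.ofFinite T
  rw [Nat.card_eq_fintype_card] at hT
  have h1 : ({a, b, c} : Finset T).card = 3 := Finset.card_eq_three.2 ⟨a, b, c, hab, hac, hbc, rfl⟩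
  have h2 : ({a, b, c} : Finset T) = Finset.univ := Finset.eq_univ_of_card _ (by rw [h1, hT])
  have h3 : x ∈ ({a, b, c} : Finset T) := by rw [h2]; exact Finset.mem_univ x
  simpa using h3

end generic

section sl2

variable {F : Type*} [Field F] [Fintype F]

theorem two_ne_zero_F (p : ℕ) [Fact p.Prime] [CharP F p] (hp : p ≠ 2) : (2 : F) ≠ 0 := by
  intro h
  have h1 : ((2 : ℕ) : F) = 0 := by exact_mod_cast h
  rw [CharP.cast_eq_zero_iff F p] at h1
  exact hp ((Nat.prime_dvd_prime_iff_eq Fact.out Nat.prime_two).1 h1)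

theorem neg_one_mem_center : (-1 : SL2 F) ∈ Subgroup.center (SL2 F) := by
  rw [Subgroup.mem_center_iff]
  intro g
  simp

theorem neg_one_ne_one (p : ℕ) [Fact p.Prime] [CharP F p] (hp : p ≠ 2) : (-1 : SL2 F) ≠ 1 := by
  intro h
  have h1 := congrArg (fun g : SL2 F => (g : Matrix (Fin 2) (Fin 2) F) 0 0) h
  simp only [Matrix.SpecialLinearGroup.coe_neg, Matrix.SpecialLinearGroup.coe_one,
    Matrix.neg_apply, Matrix.one_apply_eq] at h1
  apply two_ne_zero_F (F := F) p hp
  linear_combination -h1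

theorem odd_card (p : ℕ) [Fact p.Prime] [CharP F p] (hp : p ≠ 2) : Odd (Fintype.card F) := by
  obtain ⟨k, hk1, hk⟩ := FiniteField.card F p
  rw [hk]
  exact (hk1.odd_of_ne_two hp).pow

/-- [T4] -/
theorem card_center (p : ℕ) [Fact p.Prime] [CharP F p] (hp : p ≠ 2) :
    Nat.card (Subgroup.center (SL2 F)) = 2 := by
  rw [Cfsg.Agent.Lib.Helper5.card_center_SL, Fintype.card_fin]
  obtain ⟨k, hk⟩ := odd_card (F := F) p hp
  rw [hk]
  have : 2 * k + 1 - 1 = 2 * k := by omega
  rw [this]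
  exact Nat.gcd_eq_right (Dvd.intro k rfl)

variable [DecidableEq F]

theorem stS_neg_one : stS (F := F) (-1) = (Fintype.card F : ℂ) := by
  unfold stS
  rw [Pi.sub_apply, psS_apply]
  simp only [Matrix.SpecialLinearGroup.coe_neg, Matrix.SpecialLinearGroup.coe_one,
    Matrix.neg_apply, Matrix.one_apply_eq]
  have h10 : (1 : Matrix (Fin 2) (Fin 2) F) 1 0 = 0 := by simp
  have h01 : (1 : Matrix (Fin 2) (Fin 2) F) 0 1 = 0 := by simp
  rw [h10, h01]
  have hu : (1 : MulChar F ℂ) (-1 : F) = 1 := MulChar.one_apply (isUnit_one.neg)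
  simp only [neg_zero, if_true, zero_mul, zero_add, add_zero, hu]
  have : ∀ c : F, (-1 * c = c * -1) := fun c => by ring
  simp only [this, if_true, Finset.sum_const, Finset.card_univ, nsmul_eq_mul, mul_one]
  ring

/-- the Steinberg character as an element of `IrrCharacter`. -/
noncomputable def chi0 : IrrCharacter (SL2 F) := ⟨stS, stS_irr⟩

theorem order_UU (p : ℕ) [Fact p.Prime] [CharP F p] (u : SL2 F) (hu : u ∈ UU 2 F) (hu1 : u ≠ 1) :
    p ∣ orderOf u := by
  have h01 : (0 : Fin 2) ≠ 1 := by decide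
  have hux : u = Z.xhom (F := F) (0 : Fin 2) 1 h01
      (Multiplicative.ofAdd ((u : Matrix (Fin 2) (Fin 2) F) 0 1)) := by
    rw [mem_UU] at hu
    apply Subtype.ext
    show (u : Matrix (Fin 2) (Fin 2) F) = Matrix.transvection 0 1 _
    ext i j
    fin_cases i <;> fin_cases j
    · simpa [Matrix.transvection] using hu.2 0
    · simp [Matrix.transvection]
    · simpa [Matrix.transvection] using hu.1 1 0 (by decide)
    · simpa [Matrix.transvection] using hu.2 1
  have hpow : u ^ p = 1 := by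
    rw [hux, ← map_pow, ← ofAdd_nsmul, nsmul_eq_mul, CharP.cast_eq_zero F p, zero_mul]
    simp
  have hdvd := orderOf_dvd_of_pow_eq_one hpow
  rcases (Nat.dvd_prime (Fact.out : p.Prime)).1 hdvd with h | h
  · exact absurd (orderOf_eq_one_iff.1 h) hu1
  · rw [h]

theorem charDegree_chi0 : charDegree ((chi0 (F := F) : IrrCharacter (SL2 F)) : SL2 F → ℂ)
    = Fintype.card F := by
  have h := irr_one_eq (chi0 (F := F))
  have h2 : ((chi0 (F := F) : IrrCharacter (SL2 F)) : SL2 F → ℂ) 1 = (Fintype.card F : ℂ) := stS_one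
  rw [h2] at h
  exact_mod_cast h.symm

theorem not_dvd_of_degree (p : ℕ) [Fact p.Prime] [CharP F p] (χ : IrrCharacter (SL2 F))
    (h : charDegree (χ : SL2 F → ℂ) = Fintype.card F) :
    ¬ p ∣ Nat.card (SL2 F) / charDegree (χ : SL2 F → ℂ) := by
  rw [h, Cfsg.Agent.Lib.Helper5.card_SL2, Nat.mul_div_cancel_left _ Fintype.card_pos]
  intro hd
  have hq : p ∣ Fintype.card F ^ 2 := dvd_pow (Z.p_dvd_card p) two_ne_zero
  have h1 : 1 ≤ Fintype.card F ^ 2 := Nat.one_le_pow _ _ Fintype.card_pos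
  have h2 : p ∣ 1 := by
    have := (Nat.dvd_sub hq hd)
    rwa [Nat.sub_sub_self h1] at this
  exact (Fact.out : p.Prime).one_lt.ne' (Nat.dvd_one.1 h2)

/-- [T5] the characters of defect zero. -/
theorem defect_zero_iff_chi0 (p : ℕ) [Fact p.Prime] [CharP F p] (M : Ideal AlgInt)
    (hM : IsPModular p M) (χ : IrrCharacter (SL2 F)) :
    ¬ p ∣ Nat.card (SL2 F) / charDegree (χ : SL2 F → ℂ) ↔ χ = chi0 := by
  constructor
  · intro h
    have hb := (defect_zero_iff hM χ).1 h
    apply Subtype.ext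
    apply S7.eq_stS χ.2
    intro u hu hu1
    exact eq_zero_of_blockOf_eq_singleton hM χ hb u (order_UU p u hu hu1)
  · rintro rfl
    exact not_dvd_of_degree p _ charDegree_chi0

theorem eq_chi0_of_one (p : ℕ) [Fact p.Prime] [CharP F p] (M : Ideal AlgInt)
    (hM : IsPModular p M) (χ : IrrCharacter (SL2 F))
    (h : (χ : SL2 F → ℂ) 1 = (Fintype.card F : ℂ)) : χ = chi0 := by
  apply (defect_zero_iff_chi0 p M hM χ).1
  apply not_dvd_of_degree
  rw [irr_one_eq] at h
  exact_mod_cast h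

theorem card_defect_zero (p : ℕ) [Fact p.Prime] [CharP F p] (M : Ideal AlgInt)
    (hM : IsPModular p M) :
    Nat.card {χ : IrrCharacter (SL2 F) // ¬ p ∣ Nat.card (SL2 F) / charDegree (χ : SL2 F → ℂ)}
      = 1 := by
  rw [Nat.card_eq_one_iff_unique]
  refine ⟨⟨fun a b => Subtype.ext ?_⟩, ⟨⟨chi0, (defect_zero_iff_chi0 p M hM _).2 rfl⟩⟩⟩
  rw [(defect_zero_iff_chi0 p M hM _).1 a.2, (defect_zero_iff_chi0 p M hM _).1 b.2]

theorem card_blocks_SL2 (p : ℕ) [Fact p.Prime] [CharP F p] (hp : p ≠ 2) (M : Ideal AlgInt)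
    (hM : IsPModular p M) :
    Nat.card {B : Set (IrrCharacter (SL2 F)) // IsPBlock M B} = 3 := by
  rw [card_blocks p M hM (radHyp_SL p) (p_dvd_card_SL p le_rfl) (center_pregular p),
    card_defect_zero p M hM, card_center p hp]

end sl2

end Cfsg.Agent.Lib.Helper24.SL2Blk
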